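import Cfsg.Agent.P8.MdA

/-!
# Groups with element orders at most 8: points, lines and flags of `L₃(2)`
-/

set_option autoImplicit false

namespace Cfsg.Lib.P8.M2aH

open Subgroup Matrix

/-- Matrices over `𝔽₂`. -/
abbrev M3 : Type := Matrix (Fin 3) (Fin 3) (ZMod 2)

theorem all {P : M3 → Prop} (h : ∀ a b c d e f g k l, P !![a, b, c; d, e, f; g, k, l]) (A : M3) : P A :=
  eta_fin_three A ▸ h ..

theorem ex7 (A : M3) (h : A.det = 1 ∧ A ^ 7 = 1 ∧ A ≠ 1) : ∃ σ : L32, σ.1 = A ∧ orderOf σ = 7 :=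
  ⟨⟨A, h.1⟩, rfl, haveI : Fact (Nat.Prime 7) := ⟨by norm_num⟩
    orderOf_eq_prime (Subtype.ext h.2.1) fun e => h.2.2 (congrArg Subtype.val e)⟩

theorem mul_mv (g h : L32) (v : V3) : (g * h).1 *ᵥ v = g.1 *ᵥ h.1 *ᵥ v := (mulVec_mulVec ..).symm
theorem vm_mul (g h : L32) (f : V3) : f ᵥ* (g * h).1 = f ᵥ* g.1 ᵥ* h.1 := (vecMul_vecMul ..).symm
theorem inv_mv (g : L32) (v : V3) : (g⁻¹).1 *ᵥ g.1 *ᵥ v = v := by
  rw [← mul_mv, inv_mul_cancel]; exact one_mulVec v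
theorem mv_inv (g : L32) (v : V3) : g.1 *ᵥ (g⁻¹).1 *ᵥ v = v := by
  rw [← mul_mv, mul_inv_cancel]; exact one_mulVec v
theorem vm_inv (g : L32) (f : V3) : f ᵥ* g.1 ᵥ* (g⁻¹).1 = f := by
  rw [← vm_mul, mul_inv_cancel]; exact vecMul_one f
theorem inv_vm (g : L32) (f : V3) : f ᵥ* (g⁻¹).1 ᵥ* g.1 = f := by
  rw [← vm_mul, inv_mul_cancel]; exact vecMul_one f
theorem bij_mv (g : L32) : Function.Bijective (g.1 *ᵥ ·) :=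
  Function.bijective_iff_has_inverse.2 ⟨_, inv_mv g, mv_inv g⟩
theorem bij_vm (g : L32) : Function.Bijective (· ᵥ* g.1) :=
  Function.bijective_iff_has_inverse.2 ⟨(· ᵥ* (g⁻¹).1), vm_inv g, inv_vm g⟩

/-- The stabiliser of a flag. -/
def St (v f : V3) : Subgroup L32 where
  carrier := {g | g.1 *ᵥ v = v ∧ f ᵥ* g.1 = f}
  one_mem' := ⟨one_mulVec v, vecMul_one f⟩
  mul_mem' ha hb := ⟨by rw [mul_mv, hb.1, ha.1], by rw [vm_mul, ha.2, hb.2]⟩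
  inv_mem' {g} h := ⟨by rw [← h.1, inv_mv, h.1], by rw [← h.2, vm_inv, h.2]⟩

theorem St_eq_1' : type_of% @St.eq_1 := @St.eq_1

theorem St_form {g : L32} (h : g ∈ St ![1, 0, 0] ![0, 0, 1]) :
    g.1 ^ 4 = 1 ∧ g.1 = !![1, g.1 0 1, g.1 0 2; 0, 1, g.1 1 2; 0, 0, 1] :=
  all (P := fun A => A *ᵥ ![1, 0, 0] = ![1, 0, 0] → ![0, 0, 1] ᵥ* A = ![0, 0, 1] → A.det = 1 →
    A ^ 4 = 1 ∧ A = !![1, A 0 1, A 0 2; 0, 1, A 1 2; 0, 0, 1]) (by decide +kernel) g.1 h.1 h.2 g.2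

theorem St_two : IsPGroup 2 (St ![1, 0, 0] ![0, 0, 1]) := fun g =>
  ⟨2, Subtype.ext (Subtype.ext (St_form g.2).1)⟩

theorem St_card : Nat.card (St ![1, 0, 0] ![0, 0, 1]) ≤ 8 :=
  (Nat.card_le_card_of_injective (fun g : St ![1, 0, 0] ![0, 0, 1] => (g.1.1 0 1, g.1.1 0 2, g.1.1 1 2))
    fun a b e => Subtype.ext (Subtype.ext (by
      simp only [Prod.mk.injEq] at e
      rw [(St_form a.2).2, (St_form b.2).2, e.1, e.2.1, e.2.2]))).trans (by simp)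

theorem flag {v f : V3} (hv : v ≠ 0) (hf : f ≠ 0) (e : f ⬝ᵥ v = 0) :
    ∃ g : L32, g.1 *ᵥ ![1, 0, 0] = v ∧ f ᵥ* g.1 = ![0, 0, 1] := by
  obtain ⟨b, c, h⟩ := (by decide +kernel : ∀ v f : V3, v ≠ 0 → f ≠ 0 → f ⬝ᵥ v = 0 → ∃ b c : V3,
    f ᵥ* (of ![v, b, c])ᵀ = ![0, 0, 1] ∧ (of ![v, b, c])ᵀ.det = 1 ∧ (of ![v, b, c])ᵀ *ᵥ ![1, 0, 0] = v) v f hv hf e
  exact ⟨⟨_, h.2.1⟩, h.2.2, h.1⟩

theorem is_flag {v f : V3} {g : L32} (h1 : g.1 *ᵥ ![1, 0, 0] = v) (h2 : f ᵥ* g.1 = ![0, 0, 1]) :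
    v ≠ 0 ∧ f ≠ 0 ∧ f ⬝ᵥ v = 0 :=
  ⟨fun e => absurd ((bij_mv g).1 (h1.trans (e.trans (mulVec_zero _).symm))) (by decide),
    fun e => by rw [e, zero_vecMul] at h2; exact absurd h2 (by decide),
    by rw [← h1, dotProduct_mulVec, h2]; decide⟩

theorem pt {v : V3} (hv : v ≠ 0) : ∃ g : L32, g.1 *ᵥ ![1, 0, 0] = v := by
  obtain ⟨f, h⟩ := (by decide : ∀ v : V3, ∃ f : V3, f ≠ 0 ∧ f ⬝ᵥ v = 0) v
  exact (flag hv h.1 h.2).imp fun _ => And.left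

theorem ln {f : V3} (hf : f ≠ 0) : ∃ g : L32, f ᵥ* g.1 = ![0, 0, 1] := by
  obtain ⟨v, h⟩ := (by decide : ∀ f : V3, ∃ v : V3, v ≠ 0 ∧ f ⬝ᵥ v = 0) f
  exact (flag h.1 hf h.2).imp fun _ => And.right

/-- A function on the group which is invariant under the flag stabiliser is a function on flags. -/
theorem exists_fn {Y : Type*} (e : L32 → Y) (y : Y) (h : ∀ g, ∀ t ∈ St ![1, 0, 0] ![0, 0, 1], e (g * t) = e g) :
    ∃ E : V3 → V3 → Y, (∀ (g : L32) v f, g.1 *ᵥ ![1, 0, 0] = v → f ᵥ* g.1 = ![0, 0, 1] → E v f = e g) ∧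
      ∀ v f, ¬ (v ≠ 0 ∧ f ≠ 0 ∧ f ⬝ᵥ v = 0) → E v f = y := by
  classical
  refine ⟨fun v f => if k : ∃ g : L32, g.1 *ᵥ ![1, 0, 0] = v ∧ f ᵥ* g.1 = ![0, 0, 1] then e k.choose else y,
    fun g v f h1 h2 => ?_, fun v f n => dif_neg fun ⟨g, k⟩ => n (is_flag k.1 k.2)⟩
  have k : ∃ g : L32, g.1 *ᵥ ![1, 0, 0] = v ∧ f ᵥ* g.1 = ![0, 0, 1] := ⟨g, h1, h2⟩
  have s := k.choose_spec
  simp only [dif_pos k]
  generalize k.choose = a at s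
  rw [← h g (g⁻¹ * a) ⟨by rw [mul_mv, s.1, ← h1, inv_mv], by rw [vm_mul, ← h2, vm_inv, s.2, h2]⟩,
    mul_inv_cancel_left]

end Cfsg.Lib.P8.M2aH
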