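import Cfsg.Agent.P8.T1

/-!
# No offenders; the natural module of order 8
-/

set_option autoImplicit false

namespace Cfsg.Lib.P8

open Subgroup Cfsg.Lib.Trans Cfsg.Lib.Gold
open scoped commutatorElement

universe u v

namespace CW2H

open T1H

variable {G : Type u} [Group G] [Finite G] {H Q W R : Subgroup G} {w x : G}

theorem noff [BasJ.{u}] (mx : Mx H Q) (ws : WS H Q W) (hw : w ∈ W) (w1 : w ≠ 1)
    (st : Stb H Q W w R x) (hc : Nat.card W = 16 ∨ W ≠ Om Q) : Jt R ≤ Q := by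
  have := Fact.mk Nat.prime_two
  by_contra hn
  obtain ⟨A, AR, eA, AQ, mA⟩ := BasJ.ex hn
  obtain ⟨-, -, j3, j4, j5, j6, -⟩ := BasJ.leT Q
  have cz := (Nat.card_zpowers w).trans (orderOf_eq_prime (ws.ea.2 w hw) w1)
  have HQ : H ≤ Ns Q := mx.eq ▸ le_normalizer.trans (BasJ.o2 H).2.2.1
  have RH : R ≤ H := st.eq.le.trans ((BasJ.o2 _).1.trans inf_le_left)
  have h1 := BasJ.off AR (j3.trans st.le) eA j5 (inf_le_right.trans j6) mA j3
  have h2 := relIndex_mul_relIndex _ _ _ (le_sup_left : Q ≤ Q ⊔ A) (sup_le st.le AR)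
  rw [st.idx, Solv.Coprime.relIndex_sup_of_le_normalizer ((AR.trans RH).trans HQ)] at h2
  have h3 : Q.relIndex A ≠ 1 := fun e => AQ (relIndex_eq_one.1 e)
  have h4 : (Cs A).relIndex (Om Q) ≤ A.relIndex (Om Q) :=
    relIndex_le_of_le_left (have := eA.1; le_centralizer A) index_ne_zero_of_finite
  obtain ⟨j, hj, jQ⟩ := SetLike.not_le_iff_exists.1 AQ
  have h5 : Nat.card ↥(Cs A ⊓ W) ≤ 4 := by
    rw [← ws.inv4 j (RH (AR hj)) jQ (ea_iff.1 eA j hj ▸ one_mem Q)]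
    exact Trans.card_le_of_le fun a ha => ⟨ha.2, mem_centralizer_singleton_iff.2 (ha.1 j hj).symm⟩
  have h6 : (Q ⊔ A).relIndex R = 1 → Nat.card ↥(Cs A ⊓ W) ≤ 2 := fun e => by
    rw [← cz]
    exact Trans.card_le_of_le ((le_inf inf_le_right (le_centralizer_iff.1
      ((relIndex_eq_one.1 e).trans (sup_le (j6.trans (centralizer_le (inf_le_right.trans ws.le)))
        (le_centralizer_iff.1 inf_le_left))))).trans st.fix)
  have h7 := Solv.card_inf_mul_relIndex (Cs A) W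
  have h8 : Nat.card ↥(Cs A ⊓ W) * Q.relIndex A ≤ 8 := by
    have : Q.relIndex A ≤ 4 := Nat.le_of_dvd (by decide) ⟨_, h2.symm⟩
    by_cases e : Q.relIndex A ≤ 2
    · exact Nat.mul_le_mul h5 e
    · exact Nat.mul_le_mul (h6 (by
        obtain e | e : Q.relIndex A = 3 ∨ Q.relIndex A = 4 := by omega
        all_goals rw [e] at h2; omega)) this
  have h9 : (Cs A).relIndex W ≤ (Cs A).relIndex (Om Q) :=
    relIndex_le_of_le_right ws.le index_ne_zero_of_finite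
  rcases ws.ex with ⟨c, -⟩ | ⟨c, -, ex⟩
  · have := Nat.mul_le_mul_left (Nat.card ↥(Cs A ⊓ W)) (h9.trans (h4.trans h1))
    omega
  have VV : Om Q ≤ Cs (Om Q) := j3.trans j6
  have n1 : W ≤ Ns (Cs A ⊓ Om Q) := (ws.le.trans (VV.trans (centralizer_le inf_le_right))).trans
    (centralizer_le_normalizer _)
  have k1 := relIndex_mul_relIndex _ _ _ (le_sup_left : Cs A ⊓ Om Q ≤ (Cs A ⊓ Om Q) ⊔ W)
    (sup_le inf_le_right ws.le)
  rw [Solv.Coprime.relIndex_sup_of_le_normalizer n1, inf_relIndex_right, ← inf_relIndex_right _ W,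
    inf_assoc, inf_eq_right.2 ws.le, inf_relIndex_right] at k1
  have k2 : ((Cs A ⊓ Om Q) ⊔ W).relIndex (Om Q) ≠ 1 := fun e => hc.elim (by omega) fun d => d
    (ws.le.antisymm (ex _ ws.le j3 (HQ.trans j4) j (RH (AR hj)) jQ (commutator_le.2
      fun a ha b hb => by
        obtain ⟨s, hs, q, hq, rfl⟩ := (Solv.Coprime.mem_sup_iff n1).1 (relIndex_eq_one.1 e ha)
        have bA := zpowers_le.2 hj hb
        rw [show ⁅s * q, b⁆ = s * (q * (b * q⁻¹ * b⁻¹)) * s⁻¹ * (s * b * (b * s)⁻¹) by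
          rw [commutatorElement_def]; group, hs.1 b bA, mul_inv_cancel, mul_one]
        exact mem_normalizer_conj (ws.nor (RH (st.le (j3 hs.2))))
          (W.mul_mem hq (mem_normalizer_conj (ws.nor (RH (AR bA))) (W.inv_mem hq))))))
  have k3 : ((Cs A ⊓ Om Q) ⊔ W).relIndex (Om Q) ≠ 0 := index_ne_zero_of_finite
  have k4 := Nat.mul_le_mul_left ((Cs A).relIndex W)
    (show 2 ≤ ((Cs A ⊓ Om Q) ⊔ W).relIndex (Om Q) by omega)
  have := Nat.mul_le_mul_left (Nat.card ↥(Cs A ⊓ W)) (k4.trans (k1.le.trans (h4.trans h1)))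
  rw [← mul_assoc] at this
  omega

theorem eight [Bas2.{u}] [BasJ.{u}] [R7.{u}] (hP : Le8 G) {π : G → L32} {c : G → V3} (mx : Mx H Q)
    (ty : Ty H Q π) (ws : WS H Q W) (c8 : Nat.card W = 8) (hW : W = Om Q) (crd : Crd H W π c)
    (hw : w ∈ W) (w1 : w ≠ 1) (st : Stb H Q W w R x) (WR : ⁅W, R⁆ ≤ zpowers w) {Y : Subgroup G}
    (Yw : Y ≤ C1 w) (YR : Y ≤ Ns R) (YH : ¬ Y ≤ H) (HY : H ⊓ C1 w ≤ Ns Y) : Q ≤ W := by
  obtain ⟨-, -, j3, j4, j5, j6, -⟩ := BasJ.leT Q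
  rw [← hW] at j3 j6
  have HQ : H ≤ Ns Q := mx.eq ▸ le_normalizer.trans (BasJ.o2 H).2.2.1
  have Rw : R ≤ H ⊓ C1 w := st.eq.le.trans (BasJ.o2 _).1
  have nw := Bas2.nor mx.mx (ea_two ws.ea) (fun e => by rw [e, card_bot] at c8; omega) ws.nor
  have h1 : ∀ y ∈ Y, cj y W ≤ R := fun y hy =>
    (cj_mono y (j3.trans st.le)).trans (cj_eq_of_mem_normalizer (YR hy)).le
  have h2 : ∀ y ∈ Y, ⁅cj y W, R⁆ ≤ zpowers w := fun y hy => by
    have := cj_mono y WR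
    rwa [cj_commutator, cj_eq_of_mem_normalizer (YR hy), cj_zpowers,
      mem_centralizer_singleton_iff.1 (Yw hy), mul_inv_cancel_right] at this
  by_cases hY : ∀ y ∈ Y, cj y W ≤ Q
  swap
  · push Not at hY
    obtain ⟨y, hy, e⟩ := hY
    obtain ⟨j, hj, jQ⟩ := SetLike.not_le_iff_exists.1 e
    obtain ⟨e, -⟩ | ⟨-, -, ex⟩ := ws.ex
    · omega
    exact ex Q j3 le_rfl HQ j (Rw (h1 y hy hj)).1 jQ ((commutator_comm_le _ _).trans
      ((commutator_mono (zpowers_le.2 hj) st.le).trans ((h2 y hy).trans (zpowers_le.2 hw))))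
  set U := ⨆ y : Y, cj (y : G) W with hU
  have u1 : ∀ y ∈ Y, cj y W ≤ U := fun y hy => le_iSup (fun y : Y => cj (y : G) W) ⟨y, hy⟩
  have u2 : U ≤ Q := iSup_le fun y => hY y y.2
  have u3 : U ≤ Cs U := iSup_le fun y => le_centralizer_iff.1 (iSup_le fun z => by
    rw [← cj_centralizer, ← cj_inv_le_iff_le_cj, cj_cj]
    exact (hY _ (Y.mul_mem (Y.inv_mem y.2) z.2)).trans j6)
  obtain ⟨-, -, -, -, k5, -, k7⟩ := BasJ.leT U
  have u4 : U ≤ Om U := iSup_le fun y a ha => k7 a (u1 y y.2 ha)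
    (fun b hb => mem_centralizer_singleton_iff.2 (u3 (u1 y y.2 ha) b hb))
    (ea_iff.1 (ea_cj ws.ea y) a ha)
  have u5 : H ⊓ C1 w ≤ Ns U := fun g hg => mem_normalizer_of_cj_le (by
    rw [hU, cj_iSup]
    refine iSup_le fun y => le_trans (le_of_eq ?_) (u1 _ (mem_normalizer_conj (HY hg) y.2))
    rw [cj_cj, cj_mul _ g⁻¹, cj_eq_of_mem_normalizer (ws.nor (H.inv_mem hg.1))])
  have u6 : ⁅U, R⁆ ≤ zpowers w := commutator_le.2 fun a ha b hb => by
    refine (iSup_induction _ (C := fun a => a ∈ C1 w ∧ ⁅a, b⁆ ∈ zpowers w) ha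
      (fun y a ha => ⟨(Rw (h1 y y.2 ha)).2, h2 y y.2 (commutator_mem_commutator ha hb)⟩)
      ⟨one_mem _, by simp⟩ fun s t hs ht => ⟨mul_mem hs.1 ht.1, ?_⟩).2
    rw [show ⁅s * t, b⁆ = s * ⁅t, b⁆ * s⁻¹ * ⁅s, b⁆ by simp only [commutatorElement_def]; group]
    exact mul_mem (mem_normalizer_conj (centralizer_le_normalizer _
      (by rw [zpowers_eq_closure, centralizer_closure]; exact hs.1)) ht.2) hs.2
  have u7 := R7.out hP ty hW crd hw w1 st ((cj_one W).ge.trans (u1 1 Y.one_mem)) u2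
    (ea_iff.2 fun a ha => ea_iff.1 k5 a (u4 ha)) u5 u6
  exact (YH fun y hy => nw.le (mem_normalizer_of_cj_le ((u1 y hy).trans u7))).elim

end CW2H

theorem pf_CW2 [Bas2.{u}] [BasJ.{u}] [R7.{u}] : CW2.{u} :=
  ⟨fun _ _ _ _ mx ws _ _ _ => CW2H.noff mx ws,
    fun hP _ _ _ _ _ mx ty ws c8 hW crd _ _ _ hw w1 st WR _ _ _ =>
      CW2H.eight hP mx ty ws c8 hW crd hw w1 st WR⟩

end Cfsg.Lib.P8
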