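import Cfsg.Agent.P8.Stm

/-!
# The duad lemma for `A₅`-modules
-/

set_option autoImplicit false

namespace Cfsg.Lib.P8

open Subgroup Equiv

universe u v

namespace Du5H

theorem tr3 (i j k : Fin 5) (h1 : i ≠ j) (h2 : i ≠ k) (h3 : j ≠ k) :
    ∃ g : A5, (g : S5) 0 = i ∧ (g : S5) 1 = j ∧ (g : S5) 2 = k := by
  have key : ∀ i j k : Fin 5, i ≠ j → i ≠ k → j ≠ k →
      (swap 0 i * swap 1 (swap 0 i j) * swap 2 (swap 1 (swap 0 i j) (swap 0 i k))) 0 = i ∧
      (swap 0 i * swap 1 (swap 0 i j) * swap 2 (swap 1 (swap 0 i j) (swap 0 i k))) 1 = j ∧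
      (swap 0 i * swap 1 (swap 0 i j) * swap 2 (swap 1 (swap 0 i j) (swap 0 i k))) 2 = k := by
    decide +kernel
  obtain ⟨σ, e0, e1, e2⟩ : ∃ σ : S5, σ 0 = i ∧ σ 1 = j ∧ σ 2 = k := ⟨_, key i j k h1 h2 h3⟩
  rcases Int.units_eq_one_or (Perm.sign σ) with h | h
  · exact ⟨⟨σ, Perm.mem_alternatingGroup.2 h⟩, e0, e1, e2⟩
  · refine ⟨⟨σ * swap 3 4, Perm.mem_alternatingGroup.2 ?_⟩, ?_, ?_, ?_⟩
    · rw [map_mul, h, Perm.sign_swap (by decide)]; rfl
    · exact e0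
    · exact e1
    · exact e2

theorem tr2 (i j : Fin 5) (h : i ≠ j) : ∃ g : A5, (g : S5) 0 = i ∧ (g : S5) 1 = j := by
  have : ∀ i j : Fin 5, ∃ k, i ≠ k ∧ j ≠ k := by decide
  obtain ⟨k, h1, h2⟩ := this i j
  obtain ⟨g, e0, e1, -⟩ := tr3 i j k h h1 h2
  exact ⟨g, e0, e1⟩

variable {M : Type u} [AddCommGroup M] [DistribMulAction A5 M]

theorem pent [MdA.{u, 0}] (hM : Md A5 M) {c : Fin 5 → Fin 5 → M}
    (he : ∀ (g : A5) i j, g • c i j = c ((g : S5) i) ((g : S5) j)) (σ : S5) (hs : Perm.sign σ = 1)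
    (h5 : σ ^ 5 = 1) (h1 : σ ≠ 1) {a b d e f : Fin 5}
    (h : σ a = b ∧ σ b = d ∧ σ d = e ∧ σ e = f ∧ σ f = a) :
    c a b + c b d + c d e + c e f + c f a = 0 := by
  have : Fact (Nat.Prime 5) := ⟨by norm_num⟩
  let s : A5 := ⟨σ, Perm.mem_alternatingGroup.2 hs⟩
  have ho : orderOf s = 5 := orderOf_eq_prime (Subtype.ext h5) fun e => h1 (congrArg Subtype.val e)
  have := MdA.norm hM (Or.inl ho) (c a b)
  obtain ⟨e1, e2, e3, e4, e5⟩ := h
  have f1 : s • c a b = c b d := by rw [he]; show c (σ a) (σ b) = _; rw [e1, e2]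
  have f2 : s • c b d = c d e := by rw [he]; show c (σ b) (σ d) = _; rw [e2, e3]
  have f3 : s • c d e = c e f := by rw [he]; show c (σ d) (σ e) = _; rw [e3, e4]
  have f4 : s • c e f = c f a := by rw [he]; show c (σ e) (σ f) = _; rw [e4, e5]
  simpa only [ho, Finset.sum_range_succ, Finset.sum_range_zero, zero_add, pow_succ, pow_zero,
    one_mul, mul_smul, one_smul, f1, f2, f3, f4] using this

end Du5H

open Du5H in
theorem pf_Du5 [MdA.{u, 0}] : Du5.{u} := ⟨by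
  intro M _ _ hM m hm
  choose gg g0 g1 using tr2
  let c : Fin 5 → Fin 5 → M := fun i j => if h : i = j then 0 else gg i j h • m
  have hc : ∀ (g : A5) (i j : Fin 5), i ≠ j →
      ((g : S5) 0 = i ∧ (g : S5) 1 = j) ∨ ((g : S5) 0 = j ∧ (g : S5) 1 = i) → c i j = g • m := by
    intro g i j h hg
    have e : (g⁻¹ * gg i j h) • m = m := by
      refine hm _ ?_
      have a0 : ((g⁻¹ * gg i j h : A5) : S5) 0 = (g : S5)⁻¹ i := by
        show (g : S5)⁻¹ ((gg i j h : S5) 0) = _; rw [g0]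
      have a1 : ((g⁻¹ * gg i j h : A5) : S5) 1 = (g : S5)⁻¹ j := by
        show (g : S5)⁻¹ ((gg i j h : S5) 1) = _; rw [g1]
      rw [a0, a1]
      simp only [Perm.inv_eq_iff_eq]
      rcases hg with ⟨b0, b1⟩ | ⟨b0, b1⟩
      · exact Or.inl ⟨b0.symm, b1.symm⟩
      · exact Or.inr ⟨b1.symm, b0.symm⟩
    rw [mul_smul, inv_smul_eq_iff] at e
    simp only [c, dif_neg h, e]
  have hd : ∀ i, c i i = 0 := fun i => dif_pos rfl
  have he : ∀ (g : A5) i j, g • c i j = c ((g : S5) i) ((g : S5) j) := by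
    intro g i j
    by_cases h : i = j
    · rw [h, hd, hd, smul_zero]
    · rw [hc (gg i j h) i j h (Or.inl ⟨g0 i j h, g1 i j h⟩), ← mul_smul]
      refine (hc _ _ _ (fun e => h ((g : S5).injective e)) (Or.inl ⟨?_, ?_⟩)).symm
      · show (g : S5) ((gg i j h : S5) 0) = _; rw [g0]
      · show (g : S5) ((gg i j h : S5) 1) = _; rw [g1]
  have hs : ∀ i j, c i j = c j i := by
    intro i j
    by_cases h : i = j
    · rw [h]
    · rw [hc (gg i j h) i j h (Or.inl ⟨g0 i j h, g1 i j h⟩),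
        hc (gg i j h) j i (Ne.symm h) (Or.inr ⟨g0 i j h, g1 i j h⟩)]
  have hn : ∀ x : M, -x = x := fun x => neg_eq_of_add_eq_zero_left (hM.two x)
  have p1 := pent hM he (swap 0 4 * swap 0 3 * swap 0 2 * swap 0 1) (by decide +kernel)
    (by decide +kernel) (by decide +kernel) (a := 0) (b := 1) (d := 2) (e := 3) (f := 4)
    (by decide +kernel)
  have p2 := pent hM he (swap 3 4 * swap 3 2 * swap 3 0 * swap 3 1) (by decide +kernel)
    (by decide +kernel) (by decide +kernel) (a := 3) (b := 1) (d := 0) (e := 2) (f := 4)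
    (by decide +kernel)
  have p3 := pent hM he (swap 3 2 * swap 3 4 * swap 3 0 * swap 3 1) (by decide +kernel)
    (by decide +kernel) (by decide +kernel) (a := 3) (b := 1) (d := 0) (e := 4) (f := 2)
    (by decide +kernel)
  have t0 : c 0 1 + c 1 2 = c 0 2 := by
    rw [hs 4 3] at p2
    rw [hs 0 4, hs 4 2] at p3
    have := congrArg₂ (· + ·) (congrArg₂ (· + ·) p1 p2) p3
    simp only [add_zero] at this
    have e : c 0 1 + c 1 2 - c 0 2 = c 0 1 + c 1 2 + c 2 3 + c 3 4 + c 4 0 +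
        (c 3 1 + c 1 0 + c 0 2 + c 2 4 + c 3 4) + (c 3 1 + c 1 0 + c 4 0 + c 2 4 + c 2 3) -
        ((c 2 3 + c 2 3) + (c 3 4 + c 3 4) + (c 4 0 + c 4 0) + (c 3 1 + c 3 1) + (c 1 0 + c 1 0) +
          (c 2 4 + c 2 4) + (c 0 2 + c 0 2)) := by abel
    simp only [this, hM.two, add_zero, sub_zero] at e
    exact sub_eq_zero.1 e
  refine ⟨c, by rw [hc 1 0 1 (by decide) (Or.inl ⟨rfl, rfl⟩), one_smul], hd, fun i j k => ?_, he⟩
  by_cases h1 : i = j
  · rw [h1, hd, zero_add]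
  by_cases h3 : j = k
  · rw [h3, hd, add_zero]
  by_cases h2 : i = k
  · rw [h2, hd, hs k j, hM.two]
  obtain ⟨g, rfl, rfl, rfl⟩ := tr3 i j k h1 h2 h3
  rw [← he, ← he, ← he, ← smul_add, t0]⟩

end Cfsg.Lib.P8
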