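import Cfsg.Agent.P8.Stm
import Cfsg.Agent.HN.Carm
import Cfsg.Agent.Spor.GF4
import Cfsg.Agent.Class.FieldIso

/-!
# `A₆` embeds in `L₃(4)`
-/

set_option autoImplicit false

namespace Cfsg.Lib.P8

namespace E6H

open Cfsg.Lib.Spor Matrix

/-- Matrices inducing four three-cycles on a hyperoval. -/
def mt (i : Fin 6) : Matrix (Fin 3) (Fin 3) GF4 := Matrix.of fun r c => GF4.ofN
  (![![![1, 0, 0], ![2, 3, 0], ![3, 0, 2]], ![![1, 2, 0], ![0, 3, 0], ![0, 1, 2]],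
    ![![1, 0, 3], ![0, 3, 1], ![0, 0, 2]], ![![1, 0, 0], ![0, 2, 0], ![0, 0, 3]],
    ![![1, 0, 0], ![0, 1, 0], ![0, 0, 1]], ![![1, 0, 0], ![0, 1, 0], ![0, 0, 1]]] i r c)

theorem mt_eq_1' : type_of% @mt.eq_1 := @mt.eq_1

theorem det_mt (i : Fin 6) : (mt i).det = 1 := by
  rw [det_fin_three]; revert i; decide +kernel

theorem cube : ∀ i, mt i * mt i * mt i = 1 := by decide +kernel

theorem sq : ∀ i j, i ≠ 4 → i ≠ 5 → j ≠ 4 → j ≠ 5 → i ≠ j →
    ∃ c : GF4, c ^ 3 = 1 ∧ scalar (Fin 3) c = mt i * mt j * (mt i * mt j) := by decide +kernel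

theorem ne : ∀ c : GF4, scalar (Fin 3) c ≠ mt 0 := by decide +kernel

theorem ex : ∃ f : A6 →* ProjectiveSpecialLinearGroup (Fin 3) GF4, Function.Injective f := by
  let a : Fin 6 → SpecialLinearGroup (Fin 3) GF4 := fun i => ⟨mt i, det_mt i⟩
  obtain ⟨ν, h⟩ := HN.exists_hom_carm (G := ProjectiveSpecialLinearGroup (Fin 3) GF4) (4 : Fin 6) 5
    (by decide) (fun i => QuotientGroup.mk (a i))
    (fun i _ _ => by
      rw [← QuotientGroup.mk_pow, pow_succ, pow_two, show a i * a i * a i = 1 from Subtype.ext (cube i)]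
      rfl)
    (fun i j h1 h2 h3 h4 h5 => by
      rw [← QuotientGroup.mk_mul, ← QuotientGroup.mk_pow, QuotientGroup.eq_one_iff, pow_two]
      exact Matrix.SpecialLinearGroup.mem_center_iff.2 (sq i j h1 h2 h3 h4 h5))
  have := alternatingGroup.isSimpleGroup (α := Fin 6) (by simp)
  refine ⟨ν, (MonoidHom.ker_eq_bot_iff ν).1 ((IsSimpleGroup.eq_bot_or_eq_top_of_normal _
    inferInstance).resolve_right fun e => ?_)⟩
  have k : ν (HN.ac3 0 4 5 (by decide) (by decide)) = 1 := MonoidHom.mem_ker.1 (e ▸ Subgroup.mem_top _)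
  rw [h, QuotientGroup.eq_one_iff] at k
  obtain ⟨c, -, hc⟩ := Matrix.SpecialLinearGroup.mem_center_iff.1 k
  exact ne c hc

end E6H

theorem pf_E6 : E6 where
  a6 F _ _ hF := by
    obtain ⟨f, hf⟩ := E6H.ex
    obtain ⟨e⟩ := Spor.GF4.nonempty_ringEquiv hF
    exact ⟨(Class.pslEquiv (Fin 3) e).toMonoidHom.comp f, (Class.pslEquiv (Fin 3) e).injective.comp hf⟩

end Cfsg.Lib.P8
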