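import Cfsg.Agent.P8.Stm
import Cfsg.Agent.Solv.Cores

/-!
# Groups with element orders at most 8: offenders on modules of solvable quotients
-/

set_option autoImplicit false

namespace Cfsg.Lib.P8

open Subgroup Cfsg.Lib.Trans Cfsg.Lib.Gold
open scoped commutatorElement

universe u

namespace FFmH

variable {X : Type u} [Group X] {M : Type u} [AddCommGroup M] [DistribMulAction X M]

theorem one_of {a : X} {m n : ℕ} (h : Nat.Coprime m n) (h1 : a ^ m = 1) (h2 : a ^ n = 1) : a = 1 := by
  have := Nat.dvd_gcd (orderOf_dvd_of_pow_eq_one h1) (orderOf_dvd_of_pow_eq_one h2)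
  rw [h, Nat.dvd_one] at this
  exact orderOf_eq_one_iff.1 this

theorem cube {r : X} (hr : orderOf r = 3) : r * r * r = 1 := by
  have := pow_orderOf_eq_one r
  rwa [hr, pow_succ, pow_two] at this

theorem cube' {r : X} (hr : orderOf r = 3) (m : M) : r • r • r • m = m := by
  rw [smul_smul, smul_smul, cube hr, one_smul]

theorem inv3 {r : X} (hr : orderOf r = 3) : r⁻¹ = r * r := inv_eq_of_mul_eq_one_left (cube hr)

/-- `m ∈ [M, r]`. -/
def Ke (r : X) (m : M) : Prop := m + r • m + r • r • m = 0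

theorem Ke.zero (hM : Md X M) {r : X} {m : M} (h : Ke r m) (h1 : r • m = m) : m = 0 := by
  unfold Ke at h
  rw [h1, h1, hM.two, zero_add] at h
  exact h

theorem Ke.smul {r s : X} {m : M} (h : Ke r m) (hs : s * r = r * s) : Ke r (s • m) := by
  unfold Ke at h ⊢
  have h1 : ∀ m : M, r • s • m = s • r • m := fun m => by rw [smul_smul, smul_smul, hs]
  rw [h1, h1, ← smul_add, ← smul_add, h, smul_zero]

theorem ke_add (hM : Md X M) {r : X} (hr : orderOf r = 3) (m : M) : Ke r (m + r • m) := by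
  unfold Ke
  simp only [smul_add, cube' hr]
  linear_combination (norm := abel1) hM.two m + hM.two (r • m) + hM.two (r • r • m)

/-- The map `m ↦ m + v m`. -/
def cm (v : X) : M →+ M := AddMonoidHom.id M + DistribSMul.toAddMonoidHom M v

theorem cm_apply (v : X) (m : M) : cm v m = m + v • m := rfl

theorem range4 [Finite M] (hM : Md X M) (hF : Fth X M) {v r : X} (hv : v * v = 1) (hv1 : v ≠ 1) (hr : orderOf r = 3)
    (hc : v * r = r * v) : 4 ≤ Nat.card (cm (M := M) v).range ∧ (∀ m : M, r • m = m → v • m = m) ∧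
      ∃ m : M, m + v • m ≠ 0 ∧ Ke r (m + v • m) := by
  have hk : ∀ m : M, r • m = m → v • m = m :=
    hM.k v r hr hc ⟨1, (orderOf_eq_prime (p := 2) (by rw [pow_two, hv]) hv1 :)⟩
  have h1 : ∀ m : M, r • v • m = v • r • m := fun m => by rw [smul_smul, smul_smul, hc]
  have hke : ∀ m : M, Ke r (m + v • m) := fun m => by
    have h2 := hk (m + r • m + r • r • m) (by simp only [smul_add, cube' hr]; abel)
    unfold Ke
    simp only [smul_add, h1] at h2 ⊢
    linear_combination (norm := abel1) h2 + hM.two (m + r • m + r • r • m)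
  have hex : ∃ m : M, m + v • m ≠ 0 := by
    by_contra hcon
    push Not at hcon
    exact hv1 (hF v fun m => by linear_combination (norm := abel1) hcon m - hM.two m)
  obtain ⟨m, hm⟩ := hex
  refine ⟨?_, hk, m, hm, hke m⟩
  set w := m + v • m with hw
  have hw1 : r • w ≠ w := fun h => hm ((hke m).zero hM h)
  have hw2 : r • r • w ≠ w := fun h => hw1 (by have := cube' hr w; rwa [h] at this)
  have hw3 : r • r • w ≠ r • w := fun h => hw1 (smul_left_cancel r h)
  have h0 : r • w ≠ 0 := fun h => hm ((smul_eq_zero_iff_eq r).1 h)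
  have h0' : r • r • w ≠ 0 := fun h => h0 ((smul_eq_zero_iff_eq r).1 h)
  have hsub : ({0, w, r • w, r • r • w} : Set M) ⊆ (cm (M := M) v).range := by
    intro y hy
    simp only [Set.mem_insert_iff, Set.mem_singleton_iff] at hy
    rcases hy with rfl | rfl | rfl | rfl
    · exact AddSubgroup.zero_mem _
    · exact ⟨m, rfl⟩
    · exact ⟨r • m, by rw [cm_apply, hw, smul_add, h1]⟩
    · exact ⟨r • r • m, by rw [cm_apply, hw, smul_add, smul_add, h1, h1]⟩
  have h4 : ({0, w, r • w, r • r • w} : Set M).ncard = 4 :=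
    Set.ncard_eq_four.2 ⟨_, _, _, _, hm.symm, h0.symm, h0'.symm, hw1.symm, hw2.symm, hw3.symm, rfl⟩
  have := Set.ncard_le_ncard hsub
  rwa [h4] at this

/-- `g` is a transvection (or trivial) with centre `u`. -/
def Tv (g : X) (u : M) : Prop := (∀ m : M, g • m = m ∨ g • m = m + u) ∧ g • u = u

theorem Tv.conj {g : X} {u : M} (h : Tv g u) (s : X) : Tv (s * g * s⁻¹) (s • u) := by
  refine ⟨fun m => ?_, by rw [mul_smul, mul_smul, inv_smul_smul, h.2]⟩
  rw [mul_smul, mul_smul]
  rcases h.1 (s⁻¹ • m) with h1 | h1 <;> rw [h1]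
  · left; rw [smul_inv_smul]
  · right; rw [smul_add, smul_inv_smul]

theorem Tv.mul (hM : Md X M) {g g' : X} {u : M} (h : Tv g u) (h' : Tv g' u) : Tv (g * g') u := by
  refine ⟨fun m => ?_, by rw [mul_smul, h'.2, h.2]⟩
  rw [mul_smul]
  rcases h'.1 m with h1 | h1 <;> rw [h1]
  · exact h.1 m
  · rw [smul_add, h.2]
    rcases h.1 m with h2 | h2 <;> rw [h2]
    · right; rfl
    · left; rw [add_assoc, hM.two, add_zero]

theorem Tv.sq (hM : Md X M) (hF : Fth X M) {g : X} {u : M} (h : Tv g u) : g ^ 2 = 1 := by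
  refine hF _ fun m => ?_
  rw [pow_two, mul_smul]
  rcases h.1 m with h1 | h1
  · rw [h1, h1]
  · rw [h1, smul_add, h1, h.2, add_assoc, hM.two, add_zero]

theorem Tv.eq (hM : Md X M) (hF : Fth X M) {c c' : X} {a a' : M} (h : Tv c a) (h' : Tv c' a') (h1 : c • a' = a')
    (h3 : (c * c') ^ 3 = 1) : c * c' = 1 := by
  have h2 := h'.conj c
  rw [h1] at h2
  have h4 := (h2.mul hM h').sq hM hF
  have h5 : c⁻¹ = c := inv_eq_of_mul_eq_one_left (by rw [← pow_two]; exact h.sq hM hF)
  rw [h5] at h4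
  refine one_of (m := 3) (n := 4) (by norm_num) h3 ?_
  rw [← h4]; simp only [pow_succ, pow_zero]; group

theorem move (hM : Md X M) (hF : Fth X M) {b r : X} {u : M} (h : Tv b u) (hr : orderOf r = 3)
    (hi : b * r * b⁻¹ = r⁻¹) : b • r • u = r • u + u ∧ r • r • u = u + r • u := by
  have hb : b⁻¹ = b := inv_eq_of_mul_eq_one_left (by rw [← pow_two]; exact h.sq hM hF)
  have h1 : b • r • u = r • r • u := by
    rw [smul_smul, mul_inv_eq_iff_eq_mul.1 hi, mul_smul, h.2, inv3 hr, mul_smul]
  rcases h.1 (r • u) with h2 | h2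
  · exfalso
    have h3 : r • u = u := smul_left_cancel r (h1.symm.trans h2)
    have h4 := h.conj r
    rw [h3] at h4
    have h5 := (h.mul hM h4).sq hM hF
    have h6 : b * (r * b * r⁻¹) = r := by
      calc b * (r * b * r⁻¹) = b * r * b⁻¹ * r⁻¹ := by rw [hb]; group
        _ = r := by rw [hi, inv3 hr, ← mul_assoc, cube hr, one_mul]
    rw [h6] at h5
    have := orderOf_dvd_of_pow_eq_one h5
    rw [hr] at this
    omega
  · exact ⟨h2, by rw [← h1, h2, add_comm]⟩

theorem zp (hM : Md X M) (hF : Fth X M) {P : Subgroup X} (he : ∀ g ∈ P, g ^ 3 = 1) {b r : X} {u : M} (h : Tv b u)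
    (hr : orderOf r = 3) (hrP : r ∈ P) (hi : b * r * b⁻¹ = r⁻¹) {t : X} (ht : t ∈ P) (hi' : b * t * b⁻¹ = t⁻¹) :
    t ∈ zpowers r := by
  by_cases ht1 : t = 1
  · rw [ht1]; exact one_mem _
  have : Fact (Nat.Prime 3) := ⟨Nat.prime_three⟩
  have ho : orderOf t = 3 := orderOf_eq_prime (he t ht) ht1
  have hb : b⁻¹ = b := inv_eq_of_mul_eq_one_left (by rw [← pow_two]; exact h.sq hM hF)
  have hbb : b * b = 1 := by rw [← pow_two]; exact h.sq hM hF
  obtain ⟨a1, a2⟩ := move hM hF h hr hi
  obtain ⟨a3, -⟩ := move hM hF h ho hi'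
  have e1 : ∀ {y : X}, b * y * b⁻¹ = y⁻¹ → y * b * y⁻¹ = y * y * b := fun {y} hy => by
    calc y * b * y⁻¹ = y * (b * y * b⁻¹)⁻¹ * b := by group
      _ = y * y * b := by rw [hy, inv_inv]
  have e2 : ∀ y : X, y * b * (t * b * t⁻¹) = y * t := fun y => by
    calc y * b * (t * b * t⁻¹) = y * (b * t * b⁻¹) * t⁻¹ := by rw [hb]; group
      _ = y * t := by rw [hi', inv3 ho, mul_assoc, ← mul_assoc (t * t), cube ho, one_mul]
  have hc := h.conj r
  have hc' := h.conj t
  have hcu : (r * b * r⁻¹) • u = u + r • u := by rw [e1 hi, mul_smul, h.2, mul_smul, a2]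
  rcases hc.1 (t • u) with h1 | h1
  · have h2 := hc.eq hM hF hc' h1 (by rw [e1 hi, e2]; exact he _ (mul_mem (mul_mem hrP hrP) ht))
    rw [e1 hi, e2] at h2
    rw [eq_inv_of_mul_eq_one_right h2]
    exact inv_mem (mul_mem (mem_zpowers r) (mem_zpowers r))
  · have e3 : b * (r * b * r⁻¹) * b⁻¹ = r⁻¹ * r⁻¹ * b := by
      rw [e1 hi]
      calc b * (r * r * b) * b⁻¹ = (b * r * b⁻¹) * (b * r * b⁻¹) * b := by group
        _ = r⁻¹ * r⁻¹ * b := by rw [hi]
    have h2 := (hc.conj b).eq hM hF hc' (by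
      rw [mul_smul, mul_smul, hb, a3, smul_add, h1, hcu]
      have : t • u + r • u + (u + r • u) = t • u + u := by linear_combination (norm := abel1) hM.two (r • u)
      rw [this, smul_add, a3, h.2, add_assoc, hM.two, add_zero])
      (by rw [e3, e2]; exact he _ (mul_mem (mul_mem (inv_mem hrP) (inv_mem hrP)) ht))
    rw [e3, e2] at h2
    rw [eq_inv_of_mul_eq_one_right h2]
    exact inv_mem (mul_mem (inv_mem (mem_zpowers r)) (inv_mem (mem_zpowers r)))

theorem cen [Finite X] (hM : Md X M) (hF : Fth X M) {P : Subgroup X} [hP : P.Normal] (he : ∀ g ∈ P, g ^ 3 = 1) {b r : X} {u : M}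
    (h : Tv b u) (hr : orderOf r = 3) (hrP : r ∈ P) (hi : b * r * b⁻¹ = r⁻¹) {x : X} (hx : x ∈ P) :
    x * r = r * x := by
  classical
  have hb : b⁻¹ = b := inv_eq_of_mul_eq_one_left (by rw [← pow_two]; exact h.sq hM hF)
  have hbb : b * b = 1 := by rw [← pow_two]; exact h.sq hM hF
  have h1 : ∀ y ∈ P, y * (b * y⁻¹ * b⁻¹) ∈ zpowers r := fun y hy => by
    refine zp hM hF he h hr hrP hi (mul_mem hy (hP.conj_mem _ (inv_mem hy) b)) ?_
    calc b * (y * (b * y⁻¹ * b⁻¹)) * b⁻¹ = b * y * b * y⁻¹ * (b * b)⁻¹ := by group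
      _ = (y * (b * y⁻¹ * b⁻¹))⁻¹ := by rw [hbb, mul_inv_rev, mul_inv_rev, mul_inv_rev, inv_inv, inv_inv, hb]; group
  have h2 := mul_mem (h1 _ (mul_mem hx (inv_mem hrP))) (inv_mem (h1 x hx))
  have h3 : x * r⁻¹ * (b * (x * r⁻¹)⁻¹ * b⁻¹) * (x * (b * x⁻¹ * b⁻¹))⁻¹ = x * r * x⁻¹ := by
    calc x * r⁻¹ * (b * (x * r⁻¹)⁻¹ * b⁻¹) * (x * (b * x⁻¹ * b⁻¹))⁻¹ = x * (r⁻¹ * (b * r * b⁻¹)) * x⁻¹ := by group
      _ = x * r * x⁻¹ := by rw [hi, inv3 hr, ← mul_assoc (r * r), cube hr, one_mul]
  rw [h3, mem_zpowers_iff_mem_range_orderOf, hr] at h2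
  have hr1 : r ≠ 1 := fun h => by rw [h, orderOf_one] at hr; omega
  simp only [Finset.mem_image, Finset.mem_range] at h2
  obtain ⟨k, hk, h4⟩ := h2
  interval_cases k
  · exact absurd (conj_eq_one_iff.1 (by rw [← h4, pow_zero])) hr1
  · rw [pow_one] at h4; exact mul_inv_eq_iff_eq_mul.1 h4.symm
  · exfalso
    rw [pow_two, ← inv3 hr] at h4
    have h5 : x ^ 3 * r * (x ^ 3)⁻¹ = r⁻¹ := by
      calc x ^ 3 * r * (x ^ 3)⁻¹ = x * (x * (x * r * x⁻¹) * x⁻¹) * x⁻¹ := by simp only [pow_succ, pow_zero]; group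
        _ = x * (x * r * x⁻¹)⁻¹ * x⁻¹ := by nth_rewrite 1 [← h4]; group
        _ = r⁻¹ := by rw [← h4, inv_inv, ← h4]
    rw [he x hx, one_mul, inv_one, mul_one, inv3 hr] at h5
    exact hr1 (by simpa using h5)

theorem fin3 [Finite X] [Finite M] (hM : Md X M) (hF : Fth X M) {P : Subgroup X} [hP : P.Normal] (he : ∀ g ∈ P, g ^ 3 = 1)
    {S : Subgroup X} (hS : IsPGroup 2 S) {b r : X} {u : M} (hbS : b ∈ S) (hb2 : orderOf b = 2) (h : Tv b u)
    (hu : u ≠ 0) (hr : orderOf r = 3) (hrP : r ∈ P) (hi : b * r * b⁻¹ = r⁻¹) :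
    ∃ y y' : M, y ≠ y' ∧ b • y = y' ∧ ∀ s ∈ S, s • y = y ∨ s • y = y' := by
  obtain ⟨a1, a2⟩ := move hM hF h hr hi
  have e1 : r * b * r⁻¹ * b = r * r := by
    have hb : b⁻¹ = b := inv_eq_of_mul_eq_one_left (by rw [← pow_two]; exact h.sq hM hF)
    calc r * b * r⁻¹ * b = r * (b * r * b⁻¹)⁻¹ := by rw [mul_inv_rev, mul_inv_rev, inv_inv, hb]; group
      _ = r * r := by rw [hi, inv_inv]
  have hku : Ke r u := by
    unfold Ke
    rw [a2]; exact hM.two _
  have hU : ∀ m : M, Ke r m → m = 0 ∨ m = u ∨ m = r • u ∨ m = r • u + u := by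
    intro m hm
    unfold Ke at hm
    have h1 : (r * b * r⁻¹) • b • r • r • m = r • m := by
      rw [smul_smul, e1, mul_smul, cube' hr]
    have hc := h.conj r
    rcases h.1 (r • r • m) with h2 | h2
    · rw [h2] at h1
      rcases hc.1 (r • r • m) with h3 | h3 <;> rw [h3] at h1
      · left; linear_combination (norm := abel1) hm - h1 - hM.two (r • m)
      · right; right; left
        linear_combination (norm := abel1) hm + h1 - hM.two (r • r • m) - hM.two (r • u)
    · rcases hc.1 (b • r • r • m) with h3 | h3 <;> rw [h3, h2] at h1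
      · right; left
        linear_combination (norm := abel1) hm + h1 - hM.two (r • r • m) - hM.two u
      · right; right; right
        linear_combination (norm := abel1) hm + h1 - hM.two (r • r • m) - hM.two u - hM.two (r • u)
  have hne : r • u ≠ r • u + u := fun h => hu (left_eq_add.1 h)
  have hS' : ∀ s ∈ S, Ke r (s • r • u) := by
    intro s _
    have hx : s⁻¹ * r * s ∈ P := hP.conj_mem' r hrP s
    have hc := cen hM hF he h hr hrP hi hx
    have ho : orderOf (s⁻¹ * r * s) = 3 := by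
      rw [← hr]; exact (MulAut.conj s⁻¹).orderOf_eq r ▸ by simp
    have key : Ke (s⁻¹ * r * s) (r • u) := by
      set x := s⁻¹ * r * s
      by_cases hxu : x • u = u
      · exfalso
        have h1 := h.conj x
        rw [hxu] at h1
        have h2 := (h1.mul hM h).sq hM hF
        have hb : b⁻¹ = b := inv_eq_of_mul_eq_one_left (by rw [← pow_two]; exact h.sq hM hF)
        have h3 : x * b * x⁻¹ * b = x * (b * x⁻¹ * b⁻¹) := by rw [hb]; group
        rw [h3] at h2
        have h4 := one_of (m := 2) (n := 3) (by norm_num) h2 (he _ (mul_mem hx (hP.conj_mem _ (inv_mem hx) b)))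
        have h5 : b * x = x * b := by
          calc b * x = x * (b * x⁻¹ * b⁻¹) * (b * x) := by rw [h4, one_mul]
            _ = x * b := by group
        have h6 := hM.k b x ho h5 ⟨1, hb2⟩ (r • u) (by rw [smul_smul, hc, mul_smul, hxu])
        exact hne (h6.symm.trans a1)
      · have h1 : Ke x (u + x • u) := ke_add hM ho u
        have h2 : Ke r (u + x • u) := by
          have h3 := hku.smul hc
          unfold Ke at h3 hku ⊢
          simp only [smul_add]
          linear_combination (norm := abel1) h3 + hku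
        rcases hU _ h2 with h3 | h3 | h3 | h3
        · exact absurd (by linear_combination (norm := abel1) h3 - hM.two u) hxu
        · rw [h3] at h1; exact h1.smul hc.symm
        · rwa [h3] at h1
        · rw [h3, add_comm, ← a2] at h1
          have h4 := (h1.smul hc.symm).smul hc.symm
          rwa [cube' hr] at h4
    unfold Ke at key ⊢
    have h1 := congrArg (s • ·) key
    simpa only [smul_add, mul_smul, smul_inv_smul, smul_zero] using h1
  refine ⟨r • u, r • u + u, hne, a1, fun s hs => ?_⟩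
  have hru : r • u ≠ 0 := fun h => hu ((smul_eq_zero_iff_eq r).1 h)
  rcases hU _ (hS' s hs) with h1 | h1 | h1 | h1
  · exact absurd ((smul_eq_zero_iff_eq s).1 h1) hru
  · exfalso
    have : Fact (Nat.Prime 2) := ⟨Nat.prime_two⟩
    obtain ⟨n, hn⟩ := hS.card_orbit (r • u)
    have h2 : MulAction.orbit S (r • u) = {u, r • u, r • u + u} := by
      ext y
      simp only [Set.mem_insert_iff, Set.mem_singleton_iff]
      constructor
      · rintro ⟨t, rfl⟩
        exact (hU _ (hS' t t.2)).resolve_left fun h => hru ((smul_eq_zero_iff_eq (t : X)).1 h)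
      · rintro (rfl | rfl | rfl)
        · exact ⟨⟨s, hs⟩, h1⟩
        · exact MulAction.mem_orbit_self _
        · exact ⟨⟨b, hbS⟩, a1⟩
    have h3 : ({u, r • u, r • u + u} : Set M).ncard = 3 :=
      Set.ncard_eq_three.2 ⟨_, _, _, fun h => hu (hku.zero hM h.symm), fun h => hru (right_eq_add.1 h), hne, rfl⟩
    rw [h2, Nat.card_coe_set_eq, h3] at hn
    rcases n with _ | n
    · omega
    · rw [pow_succ] at hn; omega
  · exact .inl h1
  · exact .inr h1

end FFmH

open FFmH in
theorem pf_FFm [Bas1.{u}] [MdA.{u, u}] [G1.{u}] [G2.{u}] : FFm.{u} := by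
  refine ⟨fun {X} _ _ {M} _ _ _ hS hM hF A K hA h4 hK hi => ?_, fun {X} _ _ {M} _ _ _ hS hM hF A I hA h4 hI hc hi => ?_,
    fun {X} _ _ {M} _ _ _ hS hM hF {S} h2 {b} hb ho K hK hi => ?_⟩
  · obtain ⟨v₁, h1, v₂, h2, r, hv, hr, hc, hi2⟩ := G2.ts1 hS A hA h4
    have hvv : v₁ * v₁ = 1 := by rw [← pow_two]; exact hA.2 _ h1
    obtain ⟨a1, -, m, hm, hke⟩ := range4 hM hF hvv hv hr hc
    have hmem : ∀ y : M, y ∈ (cm (M := M) v₁).ker ↔ v₁ • y = y := fun y => by
      rw [AddMonoidHom.mem_ker, cm_apply]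
      exact ⟨fun h => by linear_combination (norm := abel1) h - hM.two y, fun h => by rw [h, hM.two]⟩
    have hle : K ≤ (cm (M := M) v₁).ker := fun y hy => (hmem y).2 (hK _ h1 y hy)
    have h5 := AddSubgroup.relIndex_mul_index hle
    rw [AddSubgroup.index_ker] at h5
    have h6 : K.index ≠ 0 := AddSubgroup.index_ne_zero_of_finite
    have h7 : K.relIndex (cm (M := M) v₁).ker = 1 := by
      rcases h8 : K.relIndex (cm (M := M) v₁).ker with _ | _ | k
      · rw [h8] at h5; omega
      · rfl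
      · rw [h8] at h5; nlinarith
    have h8 := AddSubgroup.relIndex_eq_one.1 h7
    have h9 : ∀ y : M, v₁ • y = y → v₂ • y = y := fun y hy => hK _ h2 y (h8 ((hmem y).2 hy))
    set w := m + v₁ • m with hw
    have hw1 : v₁ • w = w := by rw [hw, smul_add, smul_smul, hvv, one_smul, add_comm]
    have hw2 := h9 (r • w) (by rw [smul_smul, hc, mul_smul, hw1])
    rw [smul_smul, mul_inv_eq_iff_eq_mul.1 hi2, mul_smul, h9 w hw1, inv3 hr, mul_smul] at hw2
    exact hm (hke.zero hM (smul_left_cancel r hw2))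
  · obtain ⟨v₁, h1, v₂, h2, r, hv, hr, hc', hi2⟩ := G2.ts1 hS A hA h4
    have hvv : v₁ * v₁ = 1 := by rw [← pow_two]; exact hA.2 _ h1
    obtain ⟨a1, a2, -⟩ := range4 hM hF hvv hv hr hc'
    have hle : (cm (M := M) v₁).range ≤ I := by rintro _ ⟨m, rfl⟩; exact hc _ h1 m
    have he := AddSubgroup.eq_of_le_of_card_ge hle (hi.trans a1)
    have hinv : ∀ y ∈ I, r • y ∈ I := by
      intro y hy
      rw [← he] at hy ⊢
      obtain ⟨m, rfl⟩ := hy
      exact ⟨r • m, by rw [cm_apply, cm_apply, smul_add, smul_smul, smul_smul, hc']⟩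
    refine hv (hF _ fun m => ?_)
    have h5 := hc _ h2 (r • m)
    rw [smul_smul, mul_inv_eq_iff_eq_mul.1 hi2, mul_smul, inv3 hr, mul_smul] at h5
    have h6 := add_mem h5 (hinv _ (hinv _ (hc _ h2 m)))
    have h7 : r • m + r • r • v₂ • m + r • r • (m + v₂ • m) = r • m + r • r • m := by
      simp only [smul_add]
      linear_combination (norm := abel1) hM.two (r • r • v₂ • m)
    rw [h7] at h6
    have h8 := hI _ h1 _ h6
    have h9 := a2 (m + r • m + r • r • m) (by simp only [smul_add, cube' hr]; abel)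
    rw [add_assoc, smul_add, h8] at h9
    exact add_right_cancel h9
  · have hb1 : b ≠ 1 := fun h => by rw [h, orderOf_one] at ho; omega
    have hbb : b * b = 1 := by rw [← pow_two, ← ho, pow_orderOf_eq_one]
    obtain ⟨m₀, hm⟩ : ∃ m : M, b • m ≠ m := by
      by_contra hcon
      push Not at hcon
      exact hb1 (hF b hcon)
    have hi2 : K.index = 2 := by
      have h6 : K.index ≠ 0 := AddSubgroup.index_ne_zero_of_finite
      have h7 : K.index ≠ 1 := fun h => hm (hK m₀ (by rw [AddSubgroup.index_eq_one.1 h]; trivial))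
      omega
    have hK' : ∀ m : M, b • m = m ∨ b • (m + m₀) = m + m₀ := fun m => by
      by_cases h : m ∈ K
      · exact .inl (hK m h)
      · exact .inr (hK _ ((AddSubgroup.add_mem_iff_of_index_two hi2).2 (iff_of_false h fun h' => hm (hK _ h'))))
    have hu : m₀ + b • m₀ ≠ 0 := fun h => hm (by linear_combination (norm := abel1) h - hM.two m₀)
    have hT : Tv b (m₀ + b • m₀) := by
      refine ⟨fun m => (hK' m).imp id fun h => ?_, by rw [smul_add, smul_smul, hbb, one_smul, add_comm]⟩
      rw [smul_add] at h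
      linear_combination (norm := abel1) h - hM.two (b • m₀)
    obtain ⟨r, hr, hinv⟩ := G1.inv hS ho
    have h57 : ¬ (orderOf r = 5 ∨ orderOf r = 7) := by
      intro hr
      have hpw : ∀ k, 0 < k → k < 5 → ∀ m : M, r ^ k • m = m → m = 0 := by
        intro k h0 h5
        refine hM.fp _ ?_
        rw [orderOf_pow]
        rcases hr with h | h <;> rw [h] <;> interval_cases k <;> norm_num
      have hfr := MdA.free hM hbb hinv (by rw [← pow_two]; exact hpw 2 (by norm_num) (by norm_num))
      set w := m₀ + b • m₀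
      have hfx : ∀ m : M, b • m = m → m = 0 ∨ m = w := fun m h => by
        obtain ⟨m', h'⟩ := hfr m h
        rcases hT.1 m' with h1 | h1 <;> rw [h1] at h'
        · left; rw [h', hM.two]
        · right; rw [h', ← add_assoc, hM.two, zero_add]
      have hall : (Set.univ : Set M) ⊆ {0, w, m₀, m₀ + w} := by
        intro m _
        simp only [Set.mem_insert_iff, Set.mem_singleton_iff]
        rcases hK' m with h | h
        · rcases hfx _ h with h | h <;> simp [h]
        · rcases hfx _ h with h | h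
          · right; right; left; linear_combination (norm := abel1) h - hM.two m₀
          · right; right; right; linear_combination (norm := abel1) h - hM.two m₀
      have hc4 : Nat.card M ≤ 4 := by
        rw [← Set.ncard_univ]
        refine (Set.ncard_le_ncard hall).trans ?_
        refine (Set.ncard_insert_le _ _).trans (Nat.succ_le_succ ?_)
        refine (Set.ncard_insert_le _ _).trans (Nat.succ_le_succ ?_)
        refine (Set.ncard_insert_le _ _).trans (Nat.succ_le_succ ?_)
        rw [Set.ncard_singleton]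
      have hinj : Function.Injective fun i : Fin 5 => r ^ (i : ℕ) • w := by
        have aux : ∀ i j : Fin 5, i < j → r ^ (i : ℕ) • w ≠ r ^ (j : ℕ) • w := by
          intro i j hij h
          have h1 : (j : ℕ) = i + (j - i) := by omega
          rw [h1, pow_add, mul_smul] at h
          exact hu (hpw _ (by omega) (by omega) _ (smul_left_cancel _ h).symm)
        intro i j h
        rcases lt_trichotomy i j with h1 | h1 | h1
        · exact absurd h (aux i j h1)
        · exact h1
        · exact absurd h.symm (aux j i h1)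
      have := Nat.card_le_card_of_injective _ hinj
      simp only [Nat.card_eq_fintype_card, Fintype.card_fin] at this
      omega
    rcases hr with hr | hr | ⟨hr, hrP⟩
    · exact absurd (.inl hr) h57
    · exact absurd (.inr hr) h57
    · exact fin3 hM hF (Bas1.e3 hS.p8 (Solv.pCore_isPGroup 3 X)) h2 hb ho hT hu hr hrP hinv

end Cfsg.Lib.P8
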