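import Cfsg.Agent.P8.Stm
import Cfsg.Agent.S0205
import Cfsg.Agent.Bender.CommAbs
import Cfsg.Agent.Solv.MinNormal

/-!
# Groups with element orders at most 8: the solvable radical
-/

set_option autoImplicit false

namespace Cfsg.Lib.P8

open Subgroup Cfsg.Lib.Trans Cfsg.Lib.Gold Cfsg.Agent
open scoped commutatorElement

universe u

namespace Fin2H

theorem one_of {G : Type u} [Group G] {a : G} {m n : ℕ} (h : Nat.Coprime m n) (h1 : a ^ m = 1) (h2 : a ^ n = 1) :
    a = 1 := by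
  have := Nat.dvd_gcd (orderOf_dvd_of_pow_eq_one h1) (orderOf_dvd_of_pow_eq_one h2)
  rw [h, Nat.dvd_one] at this
  exact orderOf_eq_one_iff.1 this

theorem p57 [Bas1.{u}] {p : ℕ} (hp : p = 5 ∨ p = 7) : ∀ (G : Type u) [Group G] [Finite G],
    Le8 G → ¬ Group.IsSolvable G → ∀ K : Subgroup G, K.Normal → Group.IsSolvable K → ¬ p ∣ Nat.card K := by
  have hpp : p.Prime := by rcases hp with rfl | rfl <;> norm_num
  have : Fact p.Prime := ⟨hpp⟩
  refine Solv.card_induction fun G _ _ ih => ?_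
  intro hP hns K hK hKs hd
  obtain ⟨g, hg⟩ := exists_prime_orderOf_dvd_card' p hd
  have hg' : orderOf (g : G) = p := by rw [Subgroup.orderOf_coe, hg]
  have hK0 : K ≠ ⊥ := by
    rintro rfl
    rw [card_bot] at hd
    exact hpp.one_lt.ne' (Nat.dvd_one.1 hd)
  obtain ⟨A, hA, hAK⟩ := Solv.exists_isMinNormal_le K hK0
  have hAn : A.Normal := hA.1
  have hAs : Group.IsSolvable A :=
    Group.isSolvable_of_isSolvable_injective (f := inclusion hAK) (inclusion_injective hAK)
  obtain ⟨r, hr, hc, he, -⟩ := hA.elementary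
  have hquo : ∀ (N : Subgroup G) [N.Normal], Group.IsSolvable N → ¬ Group.IsSolvable (G ⧸ N) := by
    intro N _ h1 h2
    exact hns (Group.isSolvable_of_ker_le_range N.subtype (QuotientGroup.mk' N) (by simp))
  by_cases hrp : r = p
  · subst hrp
    obtain ⟨a, haA, ha1⟩ := (A.bot_or_exists_ne_one).resolve_left hA.ne_bot
    have hord : ∀ b ∈ A, b ≠ 1 → orderOf b = r := fun b hb hb1 => orderOf_eq_prime (he b hb) hb1
    have hor : ∀ b ∈ A, b ≠ 1 → orderOf b = 5 ∨ orderOf b = 7 := fun b hb hb1 => by rw [hord b hb hb1]; exact hp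
    have hCe : ∀ c ∈ Cs A, c ^ r = 1 := fun c hc => by
      have := Bas1.fpf hP (hor a haA ha1) c (hc a haA).symm
      rwa [hord a haA ha1] at this
    have hCp : IsPGroup r ↥(Cs A) := fun c => ⟨1, Subtype.ext (by simpa using hCe c c.2)⟩
    have hCn : (Cs A).Normal := inferInstance
    have := hCp.isNilpotent
    have hq := hquo (Cs A) inferInstance
    have hPq := Bas1.quo hP (Cs A)
    have hev : 2 ∣ Nat.card (G ⧸ Cs A) := by
      by_contra h
      exact hq (S0205.result (Nat.odd_iff.2 (by omega)))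
    have : Fact (Nat.Prime 2) := ⟨Nat.prime_two⟩
    obtain ⟨j, hj⟩ := exists_prime_orderOf_dvd_card' 2 hev
    have h57 : ∃ τ : G ⧸ Cs A, orderOf τ = 5 ∨ orderOf τ = 7 := by
      by_contra hcon
      push Not at hcon
      have hs : Group.IsSolvable ↥(⊤ : Subgroup (G ⧸ Cs A)) := by
        refine Bas1.sol hPq (fun h => ?_) (fun h => ?_)
        · have : Fact (Nat.Prime 5) := ⟨by norm_num⟩
          obtain ⟨g, hg⟩ := exists_prime_orderOf_dvd_card' 5 h
          exact (hcon g).1 (by rw [Subgroup.orderOf_coe, hg])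
        · have : Fact (Nat.Prime 7) := ⟨by norm_num⟩
          obtain ⟨g, hg⟩ := exists_prime_orderOf_dvd_card' 7 h
          exact (hcon g).2 (by rw [Subgroup.orderOf_coe, hg])
      exact hq (Group.isSolvable_of_surjective (f := (⊤ : Subgroup (G ⧸ Cs A)).subtype)
        (fun g => ⟨⟨g, trivial⟩, rfl⟩))
    obtain ⟨τ, hτ⟩ := h57
    obtain ⟨i0, rfl⟩ := QuotientGroup.mk'_surjective (Cs A) j
    have hj2 : (QuotientGroup.mk' (Cs A) i0) ^ 2 = 1 := hj ▸ pow_orderOf_eq_one _
    have hj1 : QuotientGroup.mk' (Cs A) i0 ≠ 1 := fun h => by rw [h, orderOf_one] at hj; omega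
    have h1 : i0 ^ 2 ∈ Cs A := (QuotientGroup.eq_one_iff _).1 (by rw [← map_pow] at hj2; exact hj2)
    have hi : QuotientGroup.mk' (Cs A) (i0 ^ r) = QuotientGroup.mk' (Cs A) i0 := by
      rw [map_pow]
      rcases hp with rfl | rfl
      · rw [show 5 = 2 * 2 + 1 from rfl, pow_succ, pow_mul, hj2]; simp
      · rw [show 7 = 2 * 3 + 1 from rfl, pow_succ, pow_mul, hj2]; simp
    have hii : i0 ^ r * i0 ^ r = 1 := by rw [← pow_two, ← pow_mul, mul_comm, pow_mul]; exact hCe _ h1
    have hco : Nat.Coprime 2 r := by rcases hp with rfl | rfl <;> norm_num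
    have hinv : ∀ x ∈ A, i0 ^ r * x * (i0 ^ r)⁻¹ = x⁻¹ := by
      intro x hx
      refine Bender.ZL.inverts_of_fpf hii (fun y hy => hAn.conj_mem y hy _) (fun y hy hc => ?_) hx
      by_contra hy1
      have h2 := Bas1.fpf hP (hor y hy hy1) _ hc.symm
      rw [hord y hy hy1] at h2
      have h3 := one_of hco (by rw [pow_two]; exact hii) h2
      rw [h3, map_one] at hi
      exact hj1 hi.symm
    obtain ⟨t, rfl⟩ := QuotientGroup.mk'_surjective (Cs A) τ
    have hcm : QuotientGroup.mk' (Cs A) (i0 ^ r) * QuotientGroup.mk' (Cs A) t =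
        QuotientGroup.mk' (Cs A) t * QuotientGroup.mk' (Cs A) (i0 ^ r) := by
      rw [← map_mul, ← map_mul, QuotientGroup.mk'_apply, QuotientGroup.mk'_apply, QuotientGroup.eq]
      intro x hx
      set i := i0 ^ r
      have h2 := hinv x hx
      have h3 := hinv (t * x * t⁻¹) (hAn.conj_mem x hx t)
      calc x * ((i * t)⁻¹ * (t * i)) = t⁻¹ * i⁻¹ * (i * (t * x * t⁻¹) * i⁻¹) * t * i := by group
        _ = t⁻¹ * i⁻¹ * t * x⁻¹ * i := by rw [h3]; group
        _ = (i * t)⁻¹ * (t * i) * x := by rw [← h2]; group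
    have h4 := Bas1.fpf hPq hτ _ hcm
    rw [hi] at h4
    refine hj1 (one_of (m := 2) ?_ hj2 h4)
    rcases hτ with h | h <;> rw [h] <;> norm_num
  · refine ih (G ⧸ A) (Solv.card_quotient_lt hA.ne_bot) (Bas1.quo hP A) (hquo A hAs) (K.map (QuotientGroup.mk' A))
      (hK.map _ (QuotientGroup.mk'_surjective A))
      (Group.isSolvable_of_surjective (f := (QuotientGroup.mk' A).subgroupMap K)
        (MonoidHom.subgroupMap_surjective _ _)) ?_
    have h1 : orderOf (QuotientGroup.mk' A g) = p := by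
      refine orderOf_eq_prime (by rw [← map_pow, ← hg', pow_orderOf_eq_one, map_one]) fun h => ?_
      have h2 := he _ ((QuotientGroup.eq_one_iff _).1 h)
      have h3 := orderOf_dvd_of_pow_eq_one h2
      rw [hg'] at h3
      exact hrp ((Nat.prime_dvd_prime_iff_eq hpp hr).1 h3).symm
    rw [← h1]
    exact Subgroup.orderOf_dvd_natCard _ (mem_map_of_mem _ g.2)

open scoped IsMulCommutative in
theorem three [Bas1.{u}] {G : Type u} [Group G] [Finite G] (hP : Le8 G) {Y : Type u} [Group Y] (f : G →* Y)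
    (hf : Function.Surjective f) (h3 : IsPGroup 3 f.ker) (hc : IsMulCommutative f.ker) {σ x : Y}
    (hσ : orderOf σ = 7) (hx : orderOf x = 3) (hxσ : x * σ * x⁻¹ = σ ^ 2) : f.ker = ⊥ := by
  have he := Bas1.e3 hP h3
  obtain ⟨s, rfl⟩ := hf σ
  obtain ⟨y, rfl⟩ := hf x
  have hs : orderOf s = 7 := by
    obtain ⟨k, hk⟩ := orderOf_map_dvd f s
    have h1 := hP s
    have h2 := orderOf_pos s
    rw [hσ] at hk
    rcases k with _ | _ | k <;> omega
  let c : G →* MulAut f.ker := MulAut.conjNormal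
  have hN : ∀ t : G, orderOf t = 7 → ∀ m : f.ker, ∏ i ∈ Finset.range 7, c (t ^ i) m = 1 := by
    intro t ht m
    have h7 : t ^ 7 = 1 := ht ▸ pow_orderOf_eq_one t
    have h1 : c t (∏ i ∈ Finset.range 7, c (t ^ i) m) = ∏ i ∈ Finset.range 7, c (t ^ i) m := by
      rw [map_prod]
      have h2 : ∀ i, c t (c (t ^ i) m) = c (t ^ (i + 1)) m := fun i => by
        rw [pow_succ', map_mul, MulAut.mul_apply]
      simp only [h2]
      have h3 := Finset.prod_range_succ (fun i => c (t ^ i) m) 7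
      rw [Finset.prod_range_succ'] at h3
      simp only [h7, pow_zero] at h3
      exact mul_right_cancel h3
    set z := ∏ i ∈ Finset.range 7, c (t ^ i) m
    have h4 : t * z * t⁻¹ = z := congrArg Subtype.val h1
    have h5 := Bas1.fpf hP (.inr ht) (z : G) (mul_inv_eq_iff_eq_mul.1 h4).symm
    rw [ht] at h5
    exact Subtype.ext (one_of (m := 3) (n := 7) (by norm_num) (he _ z.2) h5)
  have hcube : ∀ w : G, f w ^ 3 = 1 → w ^ 3 = 1 := by
    intro w hw
    have h1 : (w ^ 3) ^ 3 = 1 := he _ (by rw [MonoidHom.mem_ker, map_pow, hw])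
    rw [← pow_mul] at h1
    have h2 := orderOf_dvd_of_pow_eq_one h1
    have h3 := hP w
    have h4 : orderOf w ∣ 3 := by
      have := (Nat.dvd_prime_pow Nat.prime_three (m := 2)).1 h2
      obtain ⟨k, hk, hk'⟩ := this
      rw [hk'] at h3 ⊢
      interval_cases k <;> simp_all
    exact orderOf_dvd_iff_pow_eq_one.1 h4
  have hrel : ∀ w : G, f w ^ 3 = 1 → ∀ m : f.ker, m * c w m * c (w * w) m = 1 := by
    intro w hw m
    have h1 := hcube w hw
    have h2 := hcube (m * w) (by rw [map_mul, (MonoidHom.mem_ker).1 m.2, one_mul, hw])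
    apply Subtype.ext
    change (m : G) * (w * m * w⁻¹) * (w * w * m * (w * w)⁻¹) = 1
    calc (m : G) * (w * m * w⁻¹) * (w * w * m * (w * w)⁻¹) = (m * w) ^ 3 * (w ^ 3)⁻¹ := by
          simp only [pow_succ, pow_zero]; group
      _ = 1 := by rw [h1, h2]; simp
  have hcf : ∀ a b : G, f a = f b → c a = c b := by
    intro a b hab
    have h1 : a⁻¹ * b ∈ f.ker := by rw [MonoidHom.mem_ker, map_mul, map_inv, hab, inv_mul_cancel]
    have h2 : c (a⁻¹ * b) = 1 := by
      ext m
      change a⁻¹ * b * m * (a⁻¹ * b)⁻¹ = m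
      have := congrArg Subtype.val (hc.is_comm.comm ⟨_, h1⟩ m)
      simp only [coe_mul] at this
      rw [this]; group
    rw [map_mul, map_inv, inv_mul_eq_one] at h2
    exact h2
  have h7 : f s ^ 7 = 1 := hσ ▸ pow_orderOf_eq_one _
  have hx3 : f y ^ 3 = 1 := hx ▸ pow_orderOf_eq_one _
  have hcj : ∀ i : ℕ, f y * f s ^ i = f s ^ (2 * i) * f y := fun i => by
    rw [pow_mul, ← hxσ, conj_pow]; group
  have hsq : ∀ i : ℕ, f s ^ i * f y * (f s ^ i * f y) = f s ^ (3 * i) * (f y * f y) := fun i => by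
    calc f s ^ i * f y * (f s ^ i * f y) = f s ^ i * (f y * f s ^ i) * f y := by group
      _ = f s ^ (3 * i) * (f y * f y) := by rw [hcj]; group
  have hcu : ∀ i : ℕ, f (s ^ i * y) ^ 3 = 1 := fun i => by
    rw [map_mul, map_pow, pow_succ', pow_two, hsq]
    calc f s ^ i * f y * (f s ^ (3 * i) * (f y * f y)) = f s ^ i * (f y * f s ^ (3 * i)) * (f y * f y) := by group
      _ = (f s ^ 7) ^ i * f y ^ 3 := by rw [hcj, pow_succ (f y), pow_two]; group
      _ = 1 := by rw [h7, hx3]; simp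
  rw [eq_bot_iff]
  intro m hm
  have h1 : ∀ i : ℕ, (⟨m, hm⟩ : f.ker) * c (s ^ i) (c y ⟨m, hm⟩) * c ((s ^ 3) ^ i) (c (y * y) ⟨m, hm⟩) = 1 := by
    intro i
    have h2 := hrel _ (hcu i) ⟨m, hm⟩
    rw [hcf (s ^ i * y * (s ^ i * y)) ((s ^ 3) ^ i * (y * y)) (by simp only [map_mul, map_pow, hsq, pow_mul]),
      map_mul, map_mul c _ (y * y)] at h2
    exact h2
  have h2 := Finset.prod_eq_one (s := Finset.range 7) (fun i _ => h1 i)
  have hs3 : orderOf (s ^ 3) = 7 := by rw [orderOf_pow, hs]; norm_num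
  rw [Finset.prod_mul_distrib, Finset.prod_mul_distrib, hN s hs, hN _ hs3, Finset.prod_const, Finset.card_range,
    mul_one, mul_one] at h2
  exact one_of (m := 3) (n := 7) (by norm_num) (he _ hm) (congrArg Subtype.val h2)

theorem rad [Bas1.{u}] [Brg.{u, u}] [E73.{u}] [M7.{u}] {Y : Type u} [Group Y] {L : Subgroup Y}
    (hL : Nonempty (↥L ≃* A7) ∨ IsL34 ↥L) : ∀ (G : Type u) [Group G] [Finite G],
    Le8 G → ∀ f : G →* Y, Function.Surjective f → Group.IsSolvable f.ker → ¬ 5 ∣ Nat.card f.ker →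
      ¬ 7 ∣ Nat.card f.ker → f.ker = ⊥ := by
  refine Solv.card_induction fun G _ _ ih => ?_
  intro hP f hf hs h5 h7
  by_contra hK0
  obtain ⟨A, hA, hAK⟩ := Solv.exists_isMinNormal_le f.ker hK0
  have hAn : A.Normal := hA.1
  have hAs : Group.IsSolvable A :=
    Group.isSolvable_of_isSolvable_injective (f := inclusion hAK) (inclusion_injective hAK)
  obtain ⟨r, hr, hc, he, hp⟩ := hA.elementary
  have hk : (QuotientGroup.lift A f hAK).ker = f.ker.map (QuotientGroup.mk' A) := QuotientGroup.ker_lift _ _ _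
  have h1 := ih (G ⧸ A) (Solv.card_quotient_lt hA.ne_bot) (Bas1.quo hP A) (QuotientGroup.lift A f hAK)
    (fun y => by obtain ⟨g, rfl⟩ := hf y; exact ⟨g, rfl⟩)
    (by rw [hk]; exact Group.isSolvable_of_surjective (f := (QuotientGroup.mk' A).subgroupMap f.ker)
          (MonoidHom.subgroupMap_surjective _ _))
    (by rw [hk]; exact fun h => h5 (h.trans (card_map_dvd _ _)))
    (by rw [hk]; exact fun h => h7 (h.trans (card_map_dvd _ _)))
  rw [hk, Subgroup.map_eq_bot_iff, QuotientGroup.ker_mk'] at h1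
  obtain rfl : A = f.ker := le_antisymm hAK h1
  obtain ⟨a, haA, ha1⟩ := (f.ker.bot_or_exists_ne_one).resolve_left hK0
  have : Fact r.Prime := ⟨hr⟩
  have hord : orderOf a = r := orderOf_eq_prime (he a haA) ha1
  have hr8 : r ≤ 8 := hord ▸ hP a
  have hrd : r ∣ Nat.card f.ker := hord ▸ Subgroup.orderOf_dvd_natCard _ haA
  have hr23 : r = 2 ∨ r = 3 := by
    interval_cases r <;> first | omega | exact absurd hr (by norm_num)
  rcases hr23 with rfl | rfl
  · classical
    let π : G → ↥L := fun g => if h : f g ∈ L then ⟨f g, h⟩ else 1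
    have hπ : ∀ g ∈ L.comap f, (π g : Y) = f g := fun g hg => by
      have hg' : f g ∈ L := hg
      simp only [π, dif_pos hg']
    have hle : f.ker ≤ L.comap f := fun g hg => by
      rw [mem_comap, (MonoidHom.mem_ker).1 hg]; exact L.one_mem
    have hj : Pj (L.comap f) f.ker π := by
      refine ⟨hle, hp, fun a ha b hb => Subtype.ext ?_, fun x => ?_, fun a ha => ?_⟩
      · rw [coe_mul, hπ a ha, hπ b hb, hπ _ (mul_mem ha hb), map_mul]
      · obtain ⟨g, hg⟩ := hf x
        have hg' : g ∈ L.comap f := by rw [mem_comap, hg]; exact x.2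
        exact ⟨g, hg', Subtype.ext (by rw [hπ g hg', hg])⟩
      · rw [MonoidHom.mem_ker, ← hπ a ha, OneMemClass.coe_eq_one]
    have hS : SecOK (L.comap f) f.ker ⊥ f.ker := by
      refine ⟨bot_le, le_rfl, ?_, ?_, ?_, fun a ha => ?_⟩
      · rw [Ns, normalizer_eq_top_iff.2 inferInstance]; exact le_top
      · rw [Ns, normalizer_eq_top_iff.2 inferInstance]; exact le_top
      · rw [commutator_le]
        intro a ha b hb
        rw [mem_bot, commutatorElement_eq_one_iff_mul_comm]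
        exact congrArg Subtype.val (hc.is_comm.comm ⟨a, ha⟩ ⟨b, hb⟩)
      · rw [mem_bot, ← pow_two]; exact he a ha
    obtain ⟨M, _, _, _, p, hM, hp⟩ := Brg.sec.{u, u} hP hj hS
    have := M7.lst hL hM
    exact ha1 (mem_bot.1 ((hp.zero a haA).1 (Subsingleton.elim _ _)))
  · have h73 : ∃ σ x : ↥L, orderOf σ = 7 ∧ orderOf x = 3 ∧ x * σ * x⁻¹ = σ ^ 2 := by
      rcases hL with ⟨⟨e⟩⟩ | hL
      · obtain ⟨σ, x, h1, h2, h3⟩ := E73.a7.{u}.2
        exact ⟨e.symm σ, e.symm x, by rw [MulEquiv.orderOf_eq, h1], by rw [MulEquiv.orderOf_eq, h2],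
          by rw [← map_inv, ← map_mul, ← map_mul, h3, map_pow]⟩
      · exact (E73.l34 hL).2.2
    obtain ⟨σ, x, h1, h2, h3⟩ := h73
    exact hK0 (three hP f hf hp hc (σ := σ) (x := x) (by rw [Subgroup.orderOf_coe, h1])
      (by rw [Subgroup.orderOf_coe, h2]) (by exact_mod_cast congrArg Subtype.val h3))

end Fin2H

theorem pf_Fin2 [Bas1.{u}] [Brg.{u, u}] [E73.{u}] [M7.{u}] : Fin2.{u} := by
  refine ⟨fun {G} _ _ hP hns K hK hs => ⟨Fin2H.p57 (.inl rfl) G hP hns K hK hs, Fin2H.p57 (.inr rfl) G hP hns K hK hs⟩,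
    fun {G} _ _ hP K _ h3 hc ⟨σ, x, h1, h2, h4⟩ => ?_, fun {G} _ _ hP K _ hs h5 h7 L hL => ?_⟩
  · have hk := QuotientGroup.ker_mk' K
    rw [← hk] at h3 hc ⊢
    exact Fin2H.three hP _ (QuotientGroup.mk'_surjective K) h3 hc h1 h2 h4
  · have hk := QuotientGroup.ker_mk' K
    have := Fin2H.rad hL G hP (QuotientGroup.mk' K) (QuotientGroup.mk'_surjective K) (by rwa [hk]) (by rwa [hk])
      (by rwa [hk])
    rwa [hk] at this

end Cfsg.Lib.P8
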