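import Cfsg.Agent.P8.M2aa

/-!
# Groups with element orders at most 8: a vector fixed by a parabolic subgroup of `L₃(2)`
-/

set_option autoImplicit false

namespace Cfsg.Lib.P8

open Subgroup Matrix M2aH

universe u

theorem pf_M2a : M2a.{u} := ⟨fun {M _ _ _} h _ => by
  let _ : Module (ZMod 2) M := AddCommGroup.zmodModule fun m => (two_nsmul m).trans (h.two m)
  obtain ⟨m, -, m0, hm⟩ := pf_MdA.fix2 h St_two (K := ⊤) (fun _ _ _ _ => trivial) top_ne_bot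
  obtain ⟨c, c1, c2⟩ := exists_fn (fun g => g • m) 0 fun g t ht => by simp only [mul_smul, hm t ht]
  have eqv : ∀ (g : L32) v f, g • c v (f ᵥ* g.1) = c (g.1 *ᵥ v) f := fun g v f => by
    by_cases k : v ≠ 0 ∧ f ᵥ* g.1 ≠ 0 ∧ (f ᵥ* g.1) ⬝ᵥ v = 0
    · obtain ⟨a, a1, a2⟩ := flag k.1 k.2.1 k.2.2
      rw [c1 a _ _ a1 a2, c1 (g * a) _ _ (by rw [mul_mv, a1]) (by rw [vm_mul, a2]), mul_smul]
    · rw [c2 _ _ k, smul_zero, c2 _ _ fun l => k ⟨fun e => l.1 (by rw [e, mulVec_zero]),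
        fun e => l.2.1 ((bij_vm g).1 (e.trans (zero_vecMul _).symm)), dotProduct_mulVec f g.1 v ▸ l.2.2⟩]
  have e1 : ∀ (g : L32) v, g • ∑ f, c v f = ∑ f, c (g.1 *ᵥ v) f := fun g v => by
    rw [← (bij_vm g).sum_comp, Finset.smul_sum]; simp only [eqv]
  have e2 : ∀ (g : L32) f, g • ∑ v, c v (f ᵥ* g.1) = ∑ v, c v f := fun g f => by
    rw [← (bij_mv g).sum_comp (c · f), Finset.smul_sum]; simp only [eqv]
  by_contra! n
  have p0 : ∑ f, c ![1, 0, 0] f = 0 := by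
    by_contra k
    obtain ⟨g, a1, a2⟩ := (n _ k).1
    exact a2 (by rw [e1, a1])
  have l0 : ∑ v, c v ![0, 0, 1] = 0 := by
    by_contra k
    obtain ⟨g, a1, a2⟩ := (n _ k).2
    exact a2 (by simpa only [a1] using e2 g ![0, 0, 1])
  have p : ∀ v, ∑ f, c v f = 0 := fun v => by
    by_cases v0 : v = 0
    · exact Finset.sum_eq_zero fun f _ => c2 _ _ fun k => k.1 v0
    · obtain ⟨g, rfl⟩ := pt v0
      rw [← e1, p0, smul_zero]
  have l : ∀ f, ∑ v, c v f = 0 := fun f => by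
    by_cases f0 : f = 0
    · exact Finset.sum_eq_zero fun v _ => c2 _ _ fun k => k.2.1 f0
    · obtain ⟨g, k⟩ := ln f0
      rw [← e2 g, k, l0, smul_zero]
  have s : ∀ A : M3, A.det = 1 ∧ A ^ 7 = 1 ∧ A ≠ 1 → ∑ v, ∑ f, (f ⬝ᵥ A *ᵥ v) • c v f = 0 := fun A k => by
    obtain ⟨σ, rfl, o⟩ := ex7 A k
    refine h.fp σ (.inr o) _ ?_
    rw [Finset.smul_sum, ← (bij_mv σ).sum_comp fun v => ∑ f, (f ⬝ᵥ σ.1 *ᵥ v) • c v f]
    refine Finset.sum_congr rfl fun v _ => ?_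
    rw [← (bij_vm σ).sum_comp, Finset.smul_sum]
    exact Finset.sum_congr rfl fun f _ => (ZMod.map_smul (DistribSMul.toAddMonoidHom M σ) _ _).trans
      (by rw [← eqv, dotProduct_mulVec f]; rfl)
  have s1 := s !![0, 0, 1; 0, 1, 1; 1, 1, 1] (by decide +kernel)
  have s2 := s !![0, 1, 1; 1, 0, 0; 0, 1, 0] (by decide +kernel)
  have s3 := s !![0, 1, 1; 1, 1, 1; 1, 0, 1] (by decide +kernel)
  have s4 : ∑ v : V3, ∑ f, (v 1 * (1 + v 2)) • c v f = 0 := by simp only [← Finset.smul_sum, p, smul_zero, Finset.sum_const_zero]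
  have s5 : ∑ v, ∑ f : V3, (1 + f 1 * (1 + f 0)) • c v f = 0 := by
    rw [Finset.sum_comm]; simp only [← Finset.smul_sum, l, smul_zero, Finset.sum_const_zero]
  have t := congr($s1 + $s2 + $s3 + $s4 + $s5)
  simp only [← Finset.sum_add_distrib, ← add_smul, add_zero] at t
  rw [Finset.sum_eq_single ![1, 0, 0], Finset.sum_eq_single ![0, 0, 1], c1 1 _ _ (one_mulVec _) (vecMul_one _),
    one_smul] at t
  · exact m0 (by rwa [show _ + _ = (1 : ZMod 2) by decide, one_smul] at t)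
  · refine fun f _ k => ?_
    by_cases a : ![1, 0, 0] ≠ (0 : V3) ∧ f ≠ 0 ∧ f ⬝ᵥ ![1, 0, 0] = 0
    · exact smul_eq_zero_of_left (by revert f; decide) _
    · rw [c2 _ _ a, smul_zero]
  · simp
  · refine fun v _ k => Finset.sum_eq_zero fun f _ => ?_
    by_cases a : v ≠ 0 ∧ f ≠ 0 ∧ f ⬝ᵥ v = 0
    · exact smul_eq_zero_of_left (by revert v f; decide +kernel) _
    · rw [c2 _ _ a, smul_zero]
  · simp⟩

end Cfsg.Lib.P8
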