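import Cfsg.Agent.P8.M2a

/-!
# Groups with element orders at most 8: an invariant subgroup of order 8 in modules of `L₃(2)`
-/

set_option autoImplicit false

namespace Cfsg.Lib.P8

open Subgroup Matrix M2aH

universe u

namespace M2bH

variable {M : Type u} [AddCommGroup M] [DistribMulAction L32 M]

theorem fin (φ : V3 →+ M) (h : ∀ v, v ≠ 0 → φ v ≠ 0) (e : ∀ (g : L32) v, ∃ v', g • φ v = φ v') :
    ∃ K : AddSubgroup M, Nat.card K = 8 ∧ ∀ g : L32, ∀ m ∈ K, g • m ∈ K :=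
  ⟨φ.range, (Nat.card_congr (φ.ofInjective ((injective_iff_map_eq_zero φ).2 fun v k =>
    by_contra fun n => h v n k)).toEquiv).symm.trans (by simp),
    by rintro g _ ⟨v, rfl⟩; exact (e g v).imp fun _ => Eq.symm⟩

theorem core (h : Md L32 M) (ρ ρ' : L32 → V3 → V3) (mul : ∀ g k v, ρ (g * k) v = ρ g (ρ k v))
    (one : ∀ v, ρ 1 v = v) (zero : ∀ g, ρ g 0 = 0) (dual : ∀ g f v, ρ' g f ⬝ᵥ ρ g v = f ⬝ᵥ v) {v₀ f₀ : V3}
    (v0 : v₀ ≠ 0) (t1 : ∀ v, v ≠ 0 → ∃ g, ρ g v₀ = v) (t2 : ∀ f, f ≠ 0 → ∃ g, ρ' g f = f₀) {m : M} (m0 : m ≠ 0)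
    (hm : ∀ g, ρ g v₀ = v₀ → g • m = m) :
    ∃ K : AddSubgroup M, Nat.card K = 8 ∧ ∀ g : L32, ∀ m ∈ K, g • m ∈ K := by
  classical
  let _ : Module (ZMod 2) M := AddCommGroup.zmodModule fun m => (two_nsmul m).trans (h.two m)
  have l : ∀ g v, ρ g⁻¹ (ρ g v) = v := fun g v => by rw [← mul, inv_mul_cancel, one]
  have bij : ∀ g, Function.Bijective (ρ g) := fun g =>
    Function.bijective_iff_has_inverse.2 ⟨ρ g⁻¹, l g, fun v => by simpa using l g⁻¹ v⟩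
  obtain ⟨c, c1, c0⟩ : ∃ c : V3 → M, (∀ g, c (ρ g v₀) = g • m) ∧ c 0 = 0 := by
    refine ⟨fun v => if k : ∃ g, ρ g v₀ = v then k.choose • m else 0, fun g => ?_,
      dif_neg fun ⟨g, k⟩ => v0 ((bij g).1 (k.trans (zero g).symm))⟩
    have k : ∃ a, ρ a v₀ = ρ g v₀ := ⟨g, rfl⟩
    simp only [dif_pos k]
    rw [← inv_smul_eq_iff, smul_smul]
    exact hm _ (by rw [mul, k.choose_spec, l])
  have eqv : ∀ g v, g • c v = c (ρ g v) := fun g v => by
    by_cases k : v = 0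
    · rw [k, zero, c0, smul_zero]
    · obtain ⟨a, rfl⟩ := t1 v k
      rw [← mul, c1, c1, mul_smul]
  have tot : ∑ v, c v = 0 := by
    obtain ⟨σ, -, o⟩ := ex7 !![0, 0, 1; 0, 1, 1; 1, 1, 1] (by decide +kernel)
    exact h.fp σ (.inr o) _ (by simp only [Finset.smul_sum, eqv, (bij σ).sum_comp])
  let d : V3 →+ M := AddMonoidHom.mk' (fun f => ∑ v, (f ⬝ᵥ v) • c v) fun a b => by
    simp only [add_dotProduct, add_smul, Finset.sum_add_distrib]
  have e : ∀ g f, g • d f = d (ρ' g f) := fun g f => by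
    change g • ∑ v, (f ⬝ᵥ v) • c v = ∑ v, (ρ' g f ⬝ᵥ v) • c v
    rw [Finset.smul_sum, ← (bij g).sum_comp fun v => (ρ' g f ⬝ᵥ v) • c v]
    exact Finset.sum_congr rfl fun v _ => (ZMod.map_smul (DistribSMul.toAddMonoidHom M g) _ _).trans
      (by rw [← eqv, dual]; rfl)
  by_cases k : ∀ f, f ≠ 0 → d f ≠ 0
  · exact fin d k fun g f => ⟨_, e g f⟩
  push Not at k
  obtain ⟨f, f0, k⟩ := k
  obtain ⟨g, rfl⟩ := t2 f f0
  have z : ∀ f', f' ≠ 0 → d f' = 0 := fun f' n => by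
    obtain ⟨a, ha⟩ := t2 f' n
    rw [← smul_eq_zero_iff_eq a, e, ha, ← e, k, smul_zero]
  refine fin (AddMonoidHom.mk' c fun a b => ?_) (fun v n => ?_) fun g v => ⟨_, eqv g v⟩
  · obtain rfl | rfl | ⟨k, rfl⟩ | ⟨f, f0, k⟩ := (by decide +kernel : ∀ a b : V3, a = 0 ∨ b = 0 ∨ (a + b = 0 ∧ a = b) ∨
      ∃ f : V3, f ≠ 0 ∧ ∀ v, f ⬝ᵥ v = 1 + (if v = 0 then 1 else 0) + (if v = a then 1 else 0) +
        (if v = b then 1 else 0) + if v = a + b then 1 else 0) a b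
    · rw [zero_add, c0, zero_add]
    · rw [add_zero, c0, add_zero]
    · rw [k, c0, h.two]
    · have := z f f0
      change ∑ v, (f ⬝ᵥ v) • c v = 0 at this
      simp only [k, add_smul, one_smul, Finset.sum_add_distrib, ite_smul, zero_smul, Finset.sum_ite_eq',
        Finset.mem_univ, if_true, tot, c0, zero_add] at this
      exact (MdAH.eq_of_add h this).symm
  · obtain ⟨a, rfl⟩ := t1 v n
    exact (c1 a).trans_ne ((smul_ne_zero_iff_ne a).2 m0)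

end M2bH

open M2bH in
theorem pf_M2b : M2b.{u} := ⟨fun h n => by
  obtain ⟨m, m0, k | k⟩ := pf_M2a.out h n
  · exact core h (fun g v => g.1 *ᵥ v) (fun g f => f ᵥ* (g⁻¹).1) mul_mv one_mulVec (fun _ => mulVec_zero _)
      (fun g f v => by rw [dotProduct_mulVec, inv_vm]) (by decide) (fun _ => pt)
      (fun _ hf => (ln hf).elim fun g e => ⟨g⁻¹, by rwa [inv_inv]⟩) m0 k
  · exact core h (fun g f => f ᵥ* (g⁻¹).1) (fun g v => g.1 *ᵥ v) (fun g k v => by rw [_root_.mul_inv_rev, vm_mul])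
      (fun v => by rw [inv_one]; exact vecMul_one v) (fun _ => zero_vecMul _)
      (fun g f v => by rw [dotProduct_comm, dotProduct_mulVec, inv_vm, dotProduct_comm]) (v₀ := ![0, 0, 1])
      (by decide) (fun _ hf => (ln hf).imp fun g e => by rw [← e, vm_inv])
      (fun _ hv => (pt hv).elim fun g e => ⟨g⁻¹, by rw [← e, inv_mv]⟩) m0
      fun g e => k g (by rw [← e, inv_vm, e])⟩

end Cfsg.Lib.P8
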