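import Cfsg.Agent.P8.M7K
import Cfsg.Agent.CITCor.NonSimple

/-!
# Modules for `L₃(4)`, `A₇` vanish; `L₃(2)` has no extension
-/

set_option autoImplicit false

namespace Cfsg.Lib.P8

open Subgroup Cfsg.Lib.Trans Cfsg.Lib.Gold

universe u v

namespace M7H

theorem l34 [MdA.{u, u}] [MdB.{u, u}] [M4.{u}] [E6] [E73.{u}] {X : Type u} [Group X] {M : Type u}
    [AddCommGroup M] [Finite M] [DistribMulAction X M] (h : IsL34 X) (hM : Md X M) : Subsingleton M := by
  obtain ⟨-, -, σ, x, h7, h3, e7⟩ := E73.l34 h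
  obtain ⟨F, _, _, hF, ⟨e⟩⟩ := h
  obtain ⟨f, hf⟩ := E6.a6 F hF
  obtain ⟨y, -, hy⟩ := CITCor.l34_three hF
  have k : ∀ a : X, orderOf a = 3 → fx (M := M) a = fx (M := M) (e.symm y) := fun a ha => by
    obtain ⟨g, hg⟩ := isConj_iff.1 (hy (e a) ((e.orderOf_eq a).trans ha))
    rw [← e.symm_apply_apply a, ← hg, map_mul, map_mul, map_inv, (MdB.cjg _ _).1]
  obtain ⟨a, b, ab⟩ := e9_A6
  have inj : Function.Injective (e.symm.toMonoidHom.comp f) := e.symm.injective.comp hf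
  have ab' := (e9_map inj).2 ab
  have h4 := MdB.four hM ab' (@M4.a6 _ M _ _ (DistribMulAction.compHom M _) (MdA.comp _ inj hM) _ _ ab)
  have hc := MdB.cube hM h7 h3 e7
  rw [k _ ab'.1, k _ ab'.2.1, k _ (e9_ord ab').1, k _ (e9_ord ab').2] at h4
  rw [k _ h3] at hc
  have h0 := Nat.card_pos (α := M)
  generalize fx (M := M) (e.symm y) = n at h4 hc
  have : n = 1 := Nat.eq_of_mul_eq_mul_left (hc ▸ h0) (by rw [mul_one, ← pow_succ, ← hc, h4]; ring)
  rw [this] at hc
  exact (Nat.card_eq_one_iff_unique.1 hc).1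

end M7H

open M7H in
theorem pf_M7 [Bas1.{u}] [MdA.{u, u}] [MdB.{u, u}] [M4.{u}] [E6] [E73.{u}] : M7.{u} where
  l34 := l34
  lst := by
    rintro X _ M _ _ _ (⟨⟨e⟩⟩ | h) hM
    · exact @M4.a7 _ M _ _ (DistribMulAction.compHom M _) (MdA.comp e.symm.toMonoidHom e.symm.injective hM)
    · exact l34 h hM
  l32 := by
    rintro X _ _ M _ _ _ h8 hM hn L _ ⟨e⟩ -
    have h49 : ¬ 7 * 7 ∣ Nat.card X := (MdB.nsq h8 hM hn).2
    obtain ⟨-, -, σ, x, h7, -, e7⟩ := E73.l32.{u}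
    let j := L.subtype.comp e.symm.toMonoidHom
    have hj : ∀ a, j a ∈ L := fun a => (e.symm a).2
    have o7 : orderOf (j σ) = 7 :=
      (orderOf_injective j (L.subtype_injective.comp e.symm.injective) σ).trans h7
    have e2 : j x * j σ * (j x)⁻¹ = j σ ^ 2 := by rw [← map_pow, ← e7, map_mul, map_mul, map_inv]
    have md : ∀ a b : ℕ, a % 7 = b % 7 → j σ ^ a = j σ ^ b := fun a b h =>
      pow_eq_pow_iff_modEq.2 (o7 ▸ h)
    refine eq_top_iff.2 fun g _ => by_contra fun hg => ?_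
    obtain ⟨l, hl, n, rfl, k, k0, k7, hk⟩ := fratt (by norm_num) o7 h49 (hj σ) g
    have no : ∀ i, k % 7 ≠ 2 ^ i % 7 := fun i h => hg (mul_mem hl (mem_of h8 (.inr rfl) o7 h49 (hj σ)
      (pow_mem (hj x) i) (by rw [hk, act_pow e2, md _ _ h])))
    obtain ⟨i, hi⟩ : ∃ i, k * 2 ^ i % 7 = 3 % 7 := by
      have := no 0
      have := no 1
      have := no 2
      interval_cases k <;> first | omega | exact ⟨0, rfl⟩ | exact ⟨1, rfl⟩ | exact ⟨2, rfl⟩
    have e3 := (act hk (act_pow e2 i)).trans (md _ _ hi)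
    generalize n * j x ^ i = g at e3
    have o6 : orderOf g = 6 := by
      have h1 := act_pow e3 (orderOf g)
      rw [pow_orderOf_eq_one, one_mul, inv_one, mul_one] at h1
      have h2 := pow_eq_pow_iff_modEq.1 ((pow_one _).trans h1)
      have h3 := h8 g
      have h4 := orderOf_pos g
      rw [o7] at h2
      generalize orderOf g = d at h2 h3 h4
      interval_cases d <;> first | rfl | exact absurd h2 (by decide)
    have o3 : orderOf (g ^ 2) = 3 := by rw [orderOf_pow, o6]; rfl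
    have f := MdA.fi hM (t := g ^ 3) (by rw [orderOf_pow, o6]; rfl) (.inr o7) (by
      rw [act_pow e3]
      exact eq_inv_of_mul_eq_one_left (by rw [← pow_succ, md (3 ^ 3 + 1) 0 rfl, pow_zero])) o3
      ((Commute.refl g).pow_pow 3 2)
    have hc := MdB.cube hM o7 o3 ((act_pow e3 2).trans (md _ _ rfl))
    rw [show fx (M := M) (g ^ 2) = 1 from Nat.card_eq_one_iff_unique.2
      ⟨⟨fun a b => Subtype.ext ((f _ a.2).trans (f _ b.2).symm)⟩, ⟨⟨0, smul_zero _⟩⟩⟩] at hc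
    exact (Finite.one_lt_card_iff_nontrivial.2 hn).ne' hc

end Cfsg.Lib.P8
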