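import Cfsg.Agent.P8.M7K

/-!
# `A₆` has no extension acting on a module
-/

set_option autoImplicit false

namespace Cfsg.Lib.P8

open Subgroup Cfsg.Lib.Trans Cfsg.Lib.Gold

universe u v

namespace M9bH

theorem ex5 : ∃ σ b : A6, orderOf σ = 5 ∧ b * σ * b⁻¹ = σ ^ 4 := by
  have : Fact (Nat.Prime 5) := ⟨by norm_num⟩
  exact ⟨⟨⟨![1, 2, 3, 4, 0, 5], ![4, 0, 1, 2, 3, 5], by decide, by decide⟩,
      Equiv.Perm.mem_alternatingGroup.2 (by decide +kernel)⟩,
    ⟨⟨![0, 4, 3, 2, 1, 5], ![0, 4, 3, 2, 1, 5], by decide, by decide⟩,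
      Equiv.Perm.mem_alternatingGroup.2 (by decide +kernel)⟩,
    orderOf_eq_prime (by decide +kernel) (by decide +kernel), by decide +kernel⟩

variable {X : Type u} [Group X] {M : Type u} [AddCommGroup M] [Finite M] [DistribMulAction X M]

theorem eight [MdA.{u, u}] (hM : Md X M) {s σ : X} (h8 : orderOf s = 8) (h5 : orderOf σ = 5)
    (e : s ^ 4 * σ * (s ^ 4)⁻¹ = σ⁻¹) (m : M) : m = 0 := by
  let φ : M → M := fun m => m + s • m
  have s8 : s ^ 4 * s ^ 4 = 1 := by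
    rw [← pow_add]; exact (h8 ▸ pow_orderOf_eq_one s : s ^ 8 = 1)
  have k : ∀ n m, φ^[2 ^ n] m = m + s ^ 2 ^ n • m := fun n => by
    induction n with
    | zero => simp [φ]
    | succ n ih =>
      intro m
      rw [pow_succ, mul_two, Function.iterate_add_apply, ih, ih, smul_add, ← mul_smul, ← pow_add, add_assoc,
        ← add_assoc (s ^ 2 ^ n • m), hM.two, zero_add]
  have k4 : ∀ m, φ^[4] m = m + s ^ 4 • m := k 2
  have fr := MdA.free hM s8 e (hM.fp _ (.inl (by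
    rw [← pow_two, orderOf_pow' _ two_ne_zero, h5]; rfl)))
  have fx : ∀ m, φ^[4] m = 0 → s ^ 4 • m = m := fun m h => by
    rw [k4] at h
    rw [← neg_eq_of_add_eq_zero_right h, neg_eq_of_add_eq_zero_right (hM.two m)]
  have k7 : ∀ m, φ^[7] m = 0 := fun m => by
    rw [← hM.n8 s h8 m, show 7 = 2 ^ 0 + (2 ^ 1 + 2 ^ 2) from rfl, Function.iterate_add_apply,
      Function.iterate_add_apply, k, k, k]
    simp only [Finset.sum_range_succ, Finset.sum_range_zero, smul_add, ← mul_smul, ← pow_add]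
    norm_num
    abel
  have k3 : ∀ m, φ^[4] m = 0 → φ^[3] m = 0 := fun m h => by
    obtain ⟨m', rfl⟩ := fr m (fx m h)
    rw [← k4, ← Function.iterate_add_apply, k7]
  have k5 : ∀ n m, φ^[4 + n] m = 0 → φ^[3 + n] m = 0 := fun n m h => by
    rw [Function.iterate_add_apply] at h ⊢
    exact k3 _ h
  have k6 : ∀ m, φ^[4] m = 0 := fun m => k5 1 m (k5 2 m (k5 3 m (k7 m)))
  obtain ⟨m', rfl⟩ := fr m (fx m (k6 m))
  rw [← k4, k6]

end M9bH

open M7H M9bH in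
theorem pf_M9b [Bas1.{u}] [MdA.{u, u}] [MdB.{u, u}] [M4.{u}] [M9.{u}] : M9b.{u} := ⟨by
  rintro X _ _ M _ _ _ h8 hM hn L _ ⟨e⟩ hC
  have h25 : ¬ 5 * 5 ∣ Nat.card X := (MdB.nsq h8 hM hn).1
  obtain ⟨σ, b, h5, e5⟩ := ex5
  let j := L.subtype.comp e.symm.toMonoidHom
  have hj : ∀ a, j a ∈ L := fun a => (e.symm a).2
  have inj : Function.Injective j := L.subtype_injective.comp e.symm.injective
  have sj : ∀ {x}, x ∈ L → ∃ a, j a = x := fun hx => ⟨e ⟨_, hx⟩, congrArg Subtype.val (e.symm_apply_apply _)⟩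
  have o5 : orderOf (j σ) = 5 := (orderOf_injective j inj σ).trans h5
  have e4 : j b * j σ * (j b)⁻¹ = j σ ^ 4 := by rw [← map_pow, ← e5, map_mul, map_mul, map_inv]
  have mem : ∀ {n k}, n * j σ * n⁻¹ = j σ ^ k → k % 5 = 1 ∨ k % 5 = 4 → n ∈ L := fun {n k} h hk => by
    rw [← pow_mod_orderOf, o5] at h
    rcases hk with hk | hk <;> rw [hk] at h
    · exact mem_of h8 (.inl rfl) o5 h25 (hj σ) (one_mem L) (by simpa using h)
    · exact mem_of h8 (.inl rfl) o5 h25 (hj σ) (hj b) (h.trans e4.symm)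
  have idx : ∀ g, g ∉ L → ∀ h, h ∉ L → g * h ∈ L := fun g hg h hh => by
    obtain ⟨l, hl, n, rfl, k, k0, k5, hk⟩ := fratt (by norm_num) o5 h25 (hj σ) g
    obtain ⟨l', hl', n', rfl, k', k0', k5', hk'⟩ := fratt (by norm_num) o5 h25 (hj σ) h
    have a := mt (fun h => mul_mem hl (mem hk h)) hg
    have a' := mt (fun h => mul_mem hl' (mem hk' h)) hh
    rw [show l * n * (l' * n') = l * (n * l' * n⁻¹) * (n * n') by group]
    refine mul_mem (mul_mem hl (Normal.conj_mem ‹_› l' hl' n)) (mem (act hk hk') ?_)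
    interval_cases k <;> interval_cases k' <;> omega
  refine eq_top_iff.2 fun g _ => by_contra fun hg => ?_
  obtain ⟨m, m0⟩ := exists_ne (0 : M)
  rcases M9.grp L ⟨e⟩ hC (index_eq_two_iff.2 ⟨g, fun x => by
    by_cases hx : x ∈ L
    · exact .inr ⟨hx, fun k => hg ((mul_mem_cancel_left hx).1 k)⟩
    · exact .inl ⟨idx x hx g hg, hx⟩⟩) with ⟨_, -, s, τ, h1, rfl, h2, h3⟩ | h
  · exact m0 (eight hM h1 h2 h3 m)
  · have k : ∀ a, orderOf (j a) = 3 → ∀ m : M, j a • m = m → m = 0 := fun a ha m hm => by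
      obtain ⟨s, s2, sx, y, hy, xy, e'⟩ := h _ (hj a) ha
      obtain ⟨c, rfl⟩ := sj hy
      exact @M4.a6 _ M _ _ (DistribMulAction.compHom M j) (MdA.comp j inj hM) _ _ ((e9_map inj).1 xy) m hm
        (MdA.bp hM ha ⟨1, s2⟩ sx xy.2.2.1.symm (xy.2.1 ▸ pow_orderOf_eq_one _) e' m hm)
    obtain ⟨a, c, ac⟩ := e9_A6
    have ac' := (e9_map inj).2 ac
    obtain ⟨m₁, m₂, m₃, m₄, rfl, h1, h2, h3, h4⟩ := MdA.dec9 hM ac' m
    have o := e9_ord ac'
    rw [← map_inv, ← map_mul, ← map_mul] at o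
    rw [← map_mul] at h3
    rw [← map_inv, ← map_mul] at h4
    exact m0 (by rw [k _ ac'.1 _ h1, k _ ac'.2.1 _ h2, k _ o.1 _ h3, k _ o.2 _ h4]; simp)⟩

end Cfsg.Lib.P8
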