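import Cfsg.Agent.P8.MdA

/-!
# Groups with element orders at most 8: module toolkit B (counting)
-/

set_option autoImplicit false

namespace Cfsg.Lib.P8

open Subgroup MdAH

universe u v

namespace MdBH

variable {X : Type v} [Group X] {M : Type u} [AddCommGroup M] [DistribMulAction X M]

theorem cube' [Finite M] (two : ∀ m : M, m + m = 0) (s y : M →+ M) (y3 : ∀ m, y (y (y m)) = m)
    (c : ∀ m, y (s m) = s (s (y m))) (s6 : ∀ m, s (s (s (s (s (s m))))) =
      m + s m + s (s m) + s (s (s m)) + s (s (s (s m))) + s (s (s (s (s m))))) :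
    Nat.card M = Nat.card {m // y m = m} ^ 3 := by
  let _ : Module (ZMod 2) M := AddCommGroup.zmodModule fun m => (two_nsmul m).trans (two m)
  have key : ∀ a b : M, (1 : ZMod 2) • a = (1 : ZMod 2) • b → a = b := by simp
  have s7 : ∀ m, s (s (s (s (s (s (s m)))))) = m := fun m => by
    rw [s6 m]; simp only [map_add, s6]; apply key; match_scalars <;> rfl
  have fix : ∀ m, y (m + y m + y (y m)) = m + y m + y (y m) := fun m => by rw [map_add, map_add, y3]; abel
  have inj : ∀ a b d : M, y a = a → y b = b → y d = d → a + s b + s (s d) = 0 →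
      a = 0 ∧ b = 0 ∧ d = 0 := fun a b d ha hb hd e1 => by
    have e2 := congrArg y e1
    have e3 := congrArg y e2
    simp only [map_add, map_zero, c, ha, hb, hd] at e2 e3
    refine ⟨?_, ?_, ?_⟩
    · linear_combination (norm := (simp only [map_add, map_zero, s7]; simp only [s6]; apply key; match_scalars <;> rfl))
        congr(s (s (s $e1))) + congr(s $e1) + congr(s (s (s (s (s (s $e2)))))) +
          congr(s (s $e2)) + congr(s (s (s (s (s $e3))))) + congr(s (s (s (s $e3))))
    · linear_combination (norm := (simp only [map_add, map_zero, s7]; simp only [s6]; apply key; match_scalars <;> rfl))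
        congr(s $e1) + congr(s (s (s (s $e1)))) + congr(s (s $e2)) +
          congr(s $e2) + congr(s (s (s (s $e3)))) + congr(s (s $e3))
    · linear_combination (norm := (simp only [map_add, map_zero, s7]; simp only [s6]; apply key; match_scalars <;> rfl))
        congr(s (s (s (s $e1)))) + congr(s (s $e1)) + congr(s $e2) +
          congr(s (s (s (s $e2)))) + congr(s (s $e3)) + congr(s $e3)
  rw [pow_three, ← Nat.card_prod, ← Nat.card_prod]
  refine (Nat.card_eq_of_bijective (fun p => p.1.1 + s p.2.1.1 + s (s p.2.2.1)) ⟨?_, fun m => ?_⟩).symm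
  · rintro ⟨⟨a, ha⟩, ⟨b, hb⟩, ⟨d, hd⟩⟩ ⟨⟨a', ha'⟩, ⟨b', hb'⟩, ⟨d', hd'⟩⟩ l
    dsimp only at l
    have := inj (a - a') (b - b') (d - d') (by rw [map_sub, ha, ha']) (by rw [map_sub, hb, hb'])
      (by rw [map_sub, hd, hd']) (by simp only [map_sub]; linear_combination (norm := abel1) l)
    simpa [sub_eq_zero] using this
  · refine ⟨(⟨_, fix (s (s (s m)) + s m)⟩, ⟨_, fix (s m + s (s (s (s m))))⟩,
      ⟨_, fix (s (s (s (s m))) + s (s m))⟩), ?_⟩
    simp only [map_add, c, s7]
    simp only [s6]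
    refine key _ _ ?_
    match_scalars <;> rfl

theorem cube [Finite M] (h : Md X M) {σ x : X} (hσ : orderOf σ = 7) (hx : orderOf x = 3)
    (e : x * σ * x⁻¹ = σ ^ 2) : Nat.card M = fx (M := M) x ^ 3 :=
  cube' h.two (DistribSMul.toAddMonoidHom M σ) (DistribSMul.toAddMonoidHom M x) (o3 hx)
    (fun m => show x • σ • m = σ • σ • x • m by
      rw [smul_smul, mul_inv_eq_iff_eq_mul.1 e, sq, mul_smul, mul_smul]) fun m => by
    have := pf_MdA.norm h (.inr hσ) m
    simp only [hσ, Finset.sum_range_succ, Finset.sum_range_zero, pow_succ, pow_zero, mul_smul, one_smul,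
      zero_add] at this
    exact (eq_of_add h this).symm

theorem kill {g g' : X} (c : Commute g g') (h3 : ∀ m : M, g • g • g • m = m)
    (z : ∀ m : M, g • m = m → g' • m = m → m = 0) {m : M} (hm : g' • m = m) : m + g • m + g • g • m = 0 :=
  z _ (efix h3 m) (by
    have : ∀ m : M, g' • g • m = g • g' • m := fun m => by rw [smul_smul, ← c, mul_smul]
    simp only [smul_add, this, hm])

theorem part (h : Md X M) {g : X} {a b c d : M} (e : a + b + c + d = 0) (ha : g • a = a)
    (hb : b + g • b + g • g • b = 0) (hc : c + g • c + g • g • c = 0) (hd : d + g • d + g • g • d = 0) :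
    a = 0 := by
  have e1 := congrArg (g • ·) e
  have e2 := congrArg (g • ·) e1
  simp only [smul_add, smul_zero, ha] at e1 e2
  linear_combination (norm := abel1) e + e1 + e2 - hb - hc - hd - h.two a

theorem four [Finite M] (h : Md X M) {a b : X} (e : E9 a b) (z : ∀ m : M, a • m = m → b • m = m → m = 0) :
    Nat.card M = fx (M := M) a * fx (M := M) b * fx (M := M) (a * b) * fx (M := M) (a * b⁻¹) := by
  simp only [fx, ← Nat.card_prod]
  refine (Nat.card_eq_of_bijective (fun p => p.1.1.1.1 + p.1.1.2.1 + p.1.2.1 + p.2.1) ⟨?_, fun m => ?_⟩).symm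
  swap
  · obtain ⟨m₁, m₂, m₃, m₄, k, h1, h2, h3, h4⟩ := pf_MdA.dec9 h e m
    exact ⟨(((⟨_, h1⟩, ⟨_, h2⟩), ⟨_, h3⟩), ⟨_, h4⟩), k.symm⟩
  obtain ⟨ha, hb, c, -⟩ := e
  replace c : Commute a b := c
  have a3 := o3 (M := M) ha
  have b3 := o3 (M := M) hb
  have c' : ∀ m : M, b • a • m = a • b • m := fun m => by rw [smul_smul, ← c, mul_smul]
  have c3 : ∀ m : M, (a * b) • (a * b) • (a * b) • m = m := fun m => by simp only [mul_smul, c', a3, b3]
  have z1 : ∀ m : M, a • m = m → (a * b) • m = m → m = 0 := fun m k l => z m k (by rwa [c, mul_smul, k] at l)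
  have z2 : ∀ m : M, a • m = m → (a * b⁻¹) • m = m → m = 0 := fun m k l => z m k (by
    rw [c.inv_right, mul_smul, k, inv_smul_eq_iff] at l; exact l.symm)
  have z3 : ∀ m : M, b • m = m → (a * b) • m = m → m = 0 := fun m k l => z m (by rwa [mul_smul, k] at l) k
  have z4 : ∀ m : M, b • m = m → (a * b⁻¹) • m = m → m = 0 := fun m k l =>
    z m (by rwa [mul_smul, inv_smul_eq_iff.2 k.symm] at l) k
  have z5 : ∀ m : M, (a * b) • m = m → (a * b⁻¹) • m = m → m = 0 := fun m k l => z1 m (by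
    have : a • a • m = m := by
      rw [smul_smul, show a * a = a * b⁻¹ * (a * b) by rw [c, mul_assoc, inv_mul_cancel_left], mul_smul, k, l]
    rw [← this, a3, this]) k
  rintro ⟨⟨⟨⟨p, hp⟩, ⟨q, hq⟩⟩, ⟨r, hr⟩⟩, ⟨s, hs⟩⟩ ⟨⟨⟨⟨p', hp'⟩, ⟨q', hq'⟩⟩, ⟨r', hr'⟩⟩, ⟨s', hs'⟩⟩ l
  dsimp only at l
  have e : (p - p') + (q - q') + (r - r') + (s - s') = 0 := by linear_combination (norm := abel1) l
  have k1 : a • (p - p') = p - p' := by rw [smul_sub, hp, hp']
  have k2 : b • (q - q') = q - q' := by rw [smul_sub, hq, hq']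
  have k3 : (a * b) • (r - r') = r - r' := by rw [smul_sub, hr, hr']
  have k4 : (a * b⁻¹) • (s - s') = s - s' := by rw [smul_sub, hs, hs']
  have c1 := (Commute.refl a).mul_right c
  have c2 := c.symm.mul_right (.refl b)
  have f1 := part h e k1 (kill c a3 z k2) (kill c1 a3 z1 k3)
    (kill ((Commute.refl a).mul_right c.inv_right) a3 z2 k4)
  have f2 := part h (by rwa [add_comm (p - p')] at e) k2 (kill c.symm b3 (fun m k l => z m l k) k1)
    (kill c2 b3 z3 k3) (kill (c.symm.mul_right (Commute.refl b).inv_right) b3 z4 k4)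
  have f3 := part h (by rwa [add_rotate (p - p'), add_rotate (q - q')] at e) k3
    (kill c1.symm c3 (fun m k l => z1 m l k) k1) (kill c2.symm c3 (fun m k l => z3 m l k) k2)
    (kill (c1.symm.mul_right c2.symm.inv_right) c3 z5 k4)
  rw [f1, f2, f3, zero_add, zero_add, zero_add] at e
  simpa [sub_eq_zero, and_assoc] using And.intro f1 (And.intro f2 (And.intro f3 e))

theorem nsq [Finite X] (h8 : Le8 X) (h : Md X M) [Nontrivial M] {p : ℕ} (hp : p = 5 ∨ p = 7) :
    ¬ p ^ 2 ∣ Nat.card X := fun k => by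
  have : Fact p.Prime := ⟨by rcases hp with rfl | rfl <;> norm_num⟩
  obtain ⟨P, hP⟩ := Sylow.exists_subgroup_card_pow_prime p k
  have o : ∀ g ∈ P, g ≠ 1 → orderOf g = p := fun g hg n => by
    obtain ⟨i, hi, e⟩ := (Nat.dvd_prime_pow this.out).1 (hP ▸ P.orderOf_dvd_natCard hg)
    have := h8 g
    interval_cases i
    · exact absurd (orderOf_eq_one_iff.1 e) n
    · rw [e, pow_one]
    · rcases hp with rfl | rfl <;> omega
  have N : ∀ g ∈ P, g ≠ 1 → ∀ m : M, ∑ i ∈ Finset.range p, g ^ i • m = 0 := fun g hg n m =>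
    o g hg n ▸ pf_MdA.norm h (by rwa [o g hg n]) m
  have ex : ∀ a ∈ P, ∃ b ∈ P, b ∉ zpowers a := fun a ha => SetLike.not_le_iff_exists.1 fun l => by
    have := (card_le_of_le l).trans (Nat.card_zpowers a ▸ h8 a)
    rcases hp with rfl | rfl <;> omega
  obtain ⟨a, ha, a1⟩ := ex 1 P.one_mem
  obtain ⟨b, hb, b1⟩ := ex a ha
  replace a1 : a ≠ 1 := fun e => a1 (by rw [e]; exact one_mem _)
  have c : Commute a b := congrArg Subtype.val
    ((IsPGroup.isMulCommutative_of_card_eq_prime_sq hP).is_comm.comm ⟨a, ha⟩ ⟨b, hb⟩)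
  obtain ⟨m, m0⟩ := exists_ne (0 : M)
  have s : ∑ j ∈ Finset.range p, ∑ i ∈ Finset.range p, (a ^ j * b) ^ i • m = 0 :=
    Finset.sum_eq_zero fun j _ => N _ (mul_mem (pow_mem ha j) hb) (fun e => b1 (by
      rw [← inv_eq_of_mul_eq_one_right e]; exact inv_mem (npow_mem_zpowers a j))) m
  rw [Finset.sum_comm, Finset.sum_eq_single 0 (fun i hi i0 => ?_) (by simp [this.out.ne_zero])] at s
  · simp only [pow_zero, one_smul, Finset.sum_const, Finset.card_range] at s
    refine m0 ?_
    rcases hp with rfl | rfl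
    · linear_combination (norm := abel1) s - 2 • h.two m
    · linear_combination (norm := abel1) s - 3 • h.two m
  · rw [← N _ (pow_mem ha i) (pow_ne_one_of_lt_orderOf i0 (o a ha a1 ▸ Finset.mem_range.1 hi)) (b ^ i • m)]
    exact Finset.sum_congr rfl fun j _ => by rw [(c.pow_left j).mul_pow, mul_smul, ← pow_mul, ← pow_mul, mul_comm]

end MdBH

open MdBH in
theorem pf_MdB : MdB.{u, v} where
  cube := cube
  four := four
  cjg g a := ⟨(Nat.card_congr ((MulAction.toPerm g).subtypeEquiv fun m => by simp [mul_smul])).symm,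
    Nat.card_congr (Equiv.subtypeEquivRight fun m => by rw [inv_smul_eq_iff, eq_comm])⟩
  nsq h8 h _ := ⟨nsq h8 h (.inl rfl), nsq h8 h (.inr rfl)⟩
  noE h f s a b hs e c d := by
    have o : ∀ b, orderOf b = 3 → Commute a b → b ∉ zpowers a → orderOf (a * b) = 3 := fun b hb c n =>
      orderOf_eq_prime (by rw [c.mul_pow, ← hb, pow_orderOf_eq_one, hb, ← e.1, pow_orderOf_eq_one, mul_one])
        fun l => n (by rw [← inv_eq_of_mul_eq_one_right l]; exact inv_mem (mem_zpowers a))
    have c1 : Commute s a := c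
    have c2 : Commute s b := d
    have c3 : Commute a b := e.2.2.1
    rw [f s fun m => ?_, orderOf_one] at hs
    · omega
    obtain ⟨m₁, m₂, m₃, m₄, rfl, h1, h2, h3, h4⟩ := pf_MdA.dec9 h e m
    rw [smul_add, smul_add, smul_add, h.k s a e.1 c ⟨1, hs⟩ _ h1, h.k s b e.2.1 d ⟨1, hs⟩ _ h2,
      h.k s _ (o b e.2.1 c3 e.2.2.2) (c1.mul_right c2) ⟨1, hs⟩ _ h3, h.k s _ (o _ ((orderOf_inv b).trans e.2.1)
        c3.inv_right (by simpa using e.2.2.2)) (c1.mul_right c2.inv_right) ⟨1, hs⟩ _ h4]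

end Cfsg.Lib.P8
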