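import Cfsg.Agent.P8.M2aa

/-!
# Groups with element orders at most 8: the rank one certificate for `L₃(2)`
-/

set_option autoImplicit false

namespace Cfsg.Lib.P8

open Subgroup Matrix M2aH Cfsg.Lib.Trans

namespace R7mH

theorem std (e : L32 → ZMod 2) (h : ∀ g, ∀ t ∈ St ![1, 0, 0] ![0, 0, 1], e (g * t) = e g)
    (k : ∀ g σ : L32, orderOf σ = 7 → ∑ i ∈ Finset.range 7, e (σ ^ i * g) • (σ ^ i * g).1 *ᵥ ![1, 0, 0] = 0)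
    (x : L32) (hx : x.1 *ᵥ ![1, 0, 0] = ![1, 0, 0]) : e x = e 1 := by
  obtain ⟨E, E1, -⟩ := exists_fn e 0 h
  have orb : ∀ (A : M3) (a b : Fin 7 → V3), (A.det = 1 ∧ A ^ 7 = 1 ∧ A ≠ 1) ∧ (a 0 ≠ 0 ∧ b 0 ≠ 0 ∧ b 0 ⬝ᵥ a 0 = 0) ∧
      (∀ i : Fin 7, (A ^ i.val) *ᵥ a 0 = a i ∧ b i ᵥ* A ^ i.val = b 0) → ∑ i, E (a i) (b i) • a i = 0 := by
    rintro A a b ⟨h1, h2, h3⟩
    obtain ⟨σ, rfl, o⟩ := ex7 A h1
    obtain ⟨g, g1, g2⟩ := flag h2.1 h2.2.1 h2.2.2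
    rw [← k g σ o, Finset.sum_range]
    refine Finset.sum_congr rfl fun i _ => ?_
    have p : (σ ^ i.val * g).1 *ᵥ ![1, 0, 0] = a i := by rw [mul_mv, g1]; exact (h3 i).1
    rw [E1 _ _ _ p (by rw [vm_mul, ← g2]; exact congrArg (· ᵥ* g.1) (h3 i).2), p]
  have o1 := orb !![0, 0, 1; 0, 1, 1; 1, 1, 0]
    ![![0, 0, 1], ![1, 1, 0], ![0, 1, 0], ![0, 1, 1], ![1, 0, 1], ![1, 1, 1], ![1, 0, 0]]
    ![![1, 0, 0], ![1, 1, 1], ![1, 0, 1], ![0, 1, 1], ![0, 1, 0], ![1, 1, 0], ![0, 0, 1]] (by decide +kernel)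
  have o2 := orb !![0, 0, 1; 1, 0, 1; 1, 1, 1]
    ![![0, 0, 1], ![1, 1, 1], ![1, 0, 1], ![1, 0, 0], ![0, 1, 1], ![1, 1, 0], ![0, 1, 0]]
    ![![1, 0, 0], ![1, 1, 0], ![1, 0, 1], ![0, 1, 0], ![0, 1, 1], ![1, 1, 1], ![0, 0, 1]] (by decide +kernel)
  have o3 := orb !![0, 0, 1; 0, 1, 1; 1, 1, 0]
    ![![0, 0, 1], ![1, 1, 0], ![0, 1, 0], ![0, 1, 1], ![1, 0, 1], ![1, 1, 1], ![1, 0, 0]]
    ![![0, 1, 0], ![1, 1, 0], ![0, 0, 1], ![1, 0, 0], ![1, 1, 1], ![1, 0, 1], ![0, 1, 1]] (by decide +kernel)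
  have o4 := orb !![0, 0, 1; 1, 1, 0; 0, 1, 0]
    ![![0, 0, 1], ![1, 0, 0], ![0, 1, 0], ![0, 1, 1], ![1, 1, 1], ![1, 0, 1], ![1, 1, 0]]
    ![![0, 1, 0], ![0, 0, 1], ![1, 0, 0], ![0, 1, 1], ![1, 0, 1], ![1, 1, 1], ![1, 1, 0]] (by decide +kernel)
  have p1 := congrFun o1 0
  have p2 := congrFun o1 2
  have p3 := congrFun o2 0
  have p4 := congrFun o2 2
  have p5 := congrFun o3 0
  have p6 := congrFun o4 0
  simp [Fin.sum_univ_succ] at p1 p2 p3 p4 p5 p6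
  rw [← E1 x _ _ hx (inv_vm x _), ← E1 1 _ _ (one_mulVec _) (vecMul_one _)]
  obtain ⟨-, f0, f1⟩ := is_flag hx (inv_vm x _)
  obtain l | l | l := (by decide : ∀ f : V3, f ≠ 0 → f ⬝ᵥ ![1, 0, 0] = 0 →
    f = ![0, 0, 1] ∨ f = ![0, 1, 0] ∨ f = ![0, 1, 1]) _ f0 f1 <;> rw [l]
  · linear_combination p3 - p4 - p1 + p2
  · linear_combination p5 - p6

end R7mH

theorem pf_R7m : R7m := ⟨fun e w S w0 hS hw he k x hx => by
  let _ : MulAction S {f : V3 // f ⬝ᵥ w = 0} :=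
    { smul s f := ⟨f.1 ᵥ* (s.1⁻¹).1, by rw [← dotProduct_mulVec, hw _ (inv_mem s.2), f.2]⟩
      one_smul f := Subtype.ext (show f.1 ᵥ* ((1 : L32)⁻¹).1 = f.1 by rw [inv_one]; exact vecMul_one _)
      mul_smul a b f := Subtype.ext (show f.1 ᵥ* ((a.1 * b.1)⁻¹).1 = f.1 ᵥ* (b.1⁻¹).1 ᵥ* (a.1⁻¹).1 by
        rw [_root_.mul_inv_rev, vm_mul]) }
  obtain ⟨f, hf, n⟩ := (IsPGroup.of_card (p := 2) (n := 3) hS).exists_fixed_point_of_prime_dvd_card_of_fixed_point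
    {f : V3 // f ⬝ᵥ w = 0}
    (by
      rw [Nat.card_eq_fintype_card]
      exact (by decide : ∀ v : V3, v ≠ 0 → 2 ∣ Fintype.card {f : V3 // f ⬝ᵥ v = 0}) w w0) (a := ⟨0, zero_dotProduct w⟩)
    fun s => Subtype.ext (zero_vecMul (s.1⁻¹).1)
  obtain ⟨h, h1, h2⟩ := flag w0 (fun l => n (Subtype.ext l.symm)) f.2
  have le : cj h⁻¹ S ≤ St ![1, 0, 0] ![0, 0, 1] := fun t ht => by
    rw [mem_cj_inv] at ht
    have a := hw _ ht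
    have b : f.1 ᵥ* ((h * t * h⁻¹)⁻¹⁻¹).1 = f.1 := congrArg Subtype.val (hf (⟨_, ht⟩ : S)⁻¹)
    rw [← h1, mul_mv, mul_mv, inv_mv] at a
    rw [inv_inv, vm_mul, vm_mul, h2] at b
    exact ⟨(bij_mv h).1 a, by rw [← inv_vm h (_ ᵥ* t.1), b, h2]⟩
  have eq := eq_of_le_of_card_ge le (St_card.trans (by rw [card_cj, hS]))
  have := R7mH.std (fun g => e (h * g * h⁻¹)) (fun g t ht => by
    rw [← he (h * g * h⁻¹) _ (mem_cj_inv.1 (eq.ge ht))]; group) (fun g σ o => (bij_mv h).1 (by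
      have := k (h * g * h⁻¹) (h * σ * h⁻¹) ((SemiconjBy.conj_mk h σ).orderOf_eq ▸ o)
      simp only [mulVec_zero, mulVec_sum, mulVec_smul, ← mul_mv]
      rw [← this, ← h1]
      refine Finset.sum_congr rfl fun i _ => ?_
      rw [← mul_mv, conj_pow]
      group)) (h⁻¹ * x * h) (by rw [mul_mv, mul_mv, h1, hx, ← h1, inv_mv])
  simpa [mul_assoc] using this⟩

end Cfsg.Lib.P8
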