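import Cfsg.Agent.P8.Stm
import Cfsg.Agent.CIT.Basic

/-!
# Groups with element orders at most 8: the type `S₅`
-/

set_option autoImplicit false

namespace Cfsg.Lib.P8

open Subgroup Cfsg.Lib.Trans Cfsg.Lib.Gold

universe u v

theorem pf_S5M [Bas1.{u}] [Bas2.{u}] [BasJ.{u}] [PjB.{u, 0}] [WL.{u}] [A5S.{u}] [S5a.{u}] [S5c.{u}] :
    S5M.{u} := ⟨by
  intro G _ _ hG H Q π hM hT hF
  obtain ⟨T, hS⟩ := exists_isSylowIn (p := 2) H
  rcases A5S.s5 hG hM hT hS with h | ⟨-, hS'⟩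
  · exact Or.inl h
  obtain ⟨e1, e2, e3, e4, -⟩ := S5a.ea hG.p8 hT hF
  obtain ⟨t1, t2, t3⟩ := e4 T hS
  rcases e2 with e2 | e2
  · refine Or.inl (Bas2.sr hS' (WL.out hS.isPGroup t1 (hS.le.trans (PjB.one hT.toPj).2.2.2.1) e1 e2 t2 t3
      fun j hj h1 h2 => ?_))
    have h3 := e3 j (hS.le hj) h1 h2
    rw [e2] at h3
    exact Nat.pow_left_injective (n := 2) (by norm_num) h3
  have hne : T ≠ ⊥ := fun e => hT.ne (le_bot_iff.1 (e ▸ t1))
  obtain ⟨⟨z, hz⟩, z1⟩ := ne_bot_iff_exists_ne_one.1 (BasJ.ne hS.isPGroup hne).2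
  obtain ⟨-, -, o1, -, o2, o3, -⟩ := BasJ.leT T
  have z2 : z ≠ 1 := fun e => z1 (Subtype.ext e)
  have oz : orderOf z = 2 := orderOf_eq_prime (o2.2 z hz) z2
  have Tz : T ≤ C1 z := fun t ht => mem_centralizer_singleton_iff.2 (o3 ht z hz).symm
  have hH := S5c.out hG hM hT hF hS hS' e2 z oz Tz
  have zQ : z ∈ Q := hT.ch ⟨hS.le (o1 hz), fun q hq => mem_centralizer_singleton_iff.1 (Tz (t1 hq))⟩
  have h2 : IsPGroup 2 (C1 z) := by
    by_contra hn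
    obtain ⟨g, hg, ho, h1⟩ := CIT.exists_odd_of_not_isPGroup hn
    have h3 := hG.p8 g
    have h4 := Subgroup.orderOf_dvd_natCard _ hg
    obtain ⟨c5, c7⟩ := Bas1.cen hG.p8 (Or.inl oz)
    have h5 : orderOf g ≠ 1 := fun e => h1 (orderOf_eq_one_iff.1 e)
    have h6 : orderOf g = 3 := by
      obtain ⟨k, hk⟩ := ho
      have : orderOf g ≠ 5 := fun e => c5 (e ▸ h4)
      have : orderOf g ≠ 7 := fun e => c7 (e ▸ h4)
      omega
    have h7 : z ∈ Q ⊓ C1 g :=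
      ⟨zQ, mem_centralizer_singleton_iff.2 (mem_centralizer_singleton_iff.1 hg).symm⟩
    rw [hF g (hH hg) h6] at h7
    exact z2 h7
  obtain ⟨S, rfl⟩ := hS'.exists_sylow_eq
  exact Or.inr ⟨S, z, oz, Tz, (hS'.eq_of_le h2 Tz le_top).le.trans le_normalizer⟩⟩

end Cfsg.Lib.P8
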