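import Cfsg.Agent.P8.Stm
import Cfsg.Agent.S0721
import Cfsg.Agent.Solv.MinNormal

/-!
# Groups with element orders at most 8: the socle
-/

set_option autoImplicit false

namespace Cfsg.Lib.P8

open Subgroup Cfsg.Lib.Trans Cfsg.Lib.Gold Cfsg.Agent
open scoped commutatorElement

universe u

namespace SocH

variable {X : Type u} [Group X] [Finite X]

theorem ex [Bas1.{u}] (hP : Le8 X) {N : Subgroup X} (h : ¬ Group.IsSolvable N) :
    ∃ p, (p = 5 ∨ p = 7) ∧ p ∣ Nat.card N := by
  by_contra k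
  push Not at k
  exact h (Bas1.sol hP (k 5 (.inl rfl)) (k 7 (.inr rfl)))

theorem prime {p : ℕ} (h : p = 5 ∨ p = 7) : p.Prime := by rcases h with rfl | rfl <;> norm_num

theorem sol [Bas1.{u}] (hP : Le8 X) {σ : X} (h : orderOf σ = 5 ∨ orderOf σ = 7) {N : Subgroup X}
    (e : ∀ g ∈ N, g * σ = σ * g) : Group.IsSolvable N := by
  have := Fact.mk (prime h)
  have k : IsPGroup (orderOf σ) N := fun c =>
    ⟨1, Subtype.ext (by simpa using Bas1.fpf hP h c (e c c.2))⟩
  have := k.isNilpotent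
  infer_instance

theorem soc [Bas1.{u}] (hP : Le8 X) (h0 : Nontrivial X)
    (h : ∀ A : Subgroup X, A.Normal → IsMulCommutative A → A = ⊥) :
    ∃ L : Subgroup X, L.Normal ∧ IsSimpleGroup L ∧ ¬ IsMulCommutative L ∧ Cs L = ⊥ := by
  classical
  have hs : ∀ K : Subgroup X, K.Normal → Group.IsSolvable K → K = ⊥ := fun K _ _ => by
    by_contra k
    obtain ⟨p, N, -, h1, -, h2, -⟩ := Solv.exists_isMinNormal_elementary_le K k
    exact h1.ne_bot (h N h1.normal h2)
  obtain ⟨L, hL⟩ := Solv.exists_isMinNormal X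
  have hn := hL.normal
  have ns : ¬ Group.IsSolvable L := fun k => hL.ne_bot (hs L hn k)
  obtain ⟨p, hp, hd⟩ := ex hP ns
  have := Fact.mk (prime hp)
  refine ⟨L, hn, ?_, fun k => hL.ne_bot (h L hn k), ?_⟩
  · obtain ⟨T, _, m, hT, hm, ⟨e⟩⟩ := S0721.result L hL.ne_bot hL.min
    have : Finite (Fin m → T) := Finite.of_equiv _ e.toEquiv
    have : Finite T := Finite.of_injective (fun (t : T) (_ : Fin m) => t) fun a b k => congrFun k ⟨0, hm⟩
    rw [Nat.card_congr e.toEquiv, Nat.card_fun] at hd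
    obtain ⟨τ, hτ⟩ := exists_prime_orderOf_dvd_card' p ((prime hp).dvd_of_dvd_pow hd)
    obtain rfl | h1 : m = 1 ∨ 1 < m := by omega
    · exact (e.trans (MulEquiv.funUnique _ _)).isSimpleGroup
    exfalso
    have k : ∀ t : T, t ^ p = 1 := fun t => by
      let f : Fin m → T →* X := fun i =>
        (L.subtype.comp e.symm.toMonoidHom).comp (MonoidHom.mulSingle (fun _ => T) i)
      have fi : ∀ i, Function.Injective (f i) := fun i =>
        (L.subtype_injective.comp e.symm.injective).comp (Pi.mulSingle_injective (M := fun _ => T) i)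
      have o : orderOf (f ⟨0, hm⟩ τ) = p := (orderOf_injective _ (fi _) τ).trans hτ
      have := Bas1.fpf hP (σ := f ⟨0, hm⟩ τ) (o ▸ hp) (f ⟨1, h1⟩ t)
        ((Pi.mulSingle_commute (f := fun _ => T) (show (⟨1, h1⟩ : Fin m) ≠ ⟨0, hm⟩ by simp) t τ).map
          (L.subtype.comp e.symm.toMonoidHom)).eq
      rw [o, ← map_pow] at this
      exact fi _ (this.trans (map_one _).symm)
    have k2 : IsPGroup p L := fun c => ⟨1, e.injective (by
      rw [pow_one, map_pow, map_one]; exact funext fun i => k _)⟩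
    have := k2.isNilpotent
    exact ns inferInstance
  · obtain ⟨σ, hσ⟩ := exists_prime_orderOf_dvd_card' p hd
    exact hs _ inferInstance (sol hP (σ := σ) (by rw [Subgroup.orderOf_coe, hσ]; exact hp)
      fun g hg => (hg σ σ.2).symm)

theorem three [Bas1.{u}] [MdA.{u, u}] {M : Type u} [AddCommGroup M] [DistribMulAction X M]
    (hP : Le8 X) (hM : Md X M) {σ : X} (hσ : orderOf σ = 5 ∨ orderOf σ = 7) {N : Subgroup X}
    [hN : N.Normal] (h3 : ∀ x ∈ N, x ^ 3 = 1) (ho : Odd (Nat.card N)) (m : M) {b : X} (hb : b ∈ N) :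
    b • m = m := by
  have := Fintype.ofFinite N
  obtain ⟨q, hq⟩ : ∃ q, orderOf σ = q + 1 := ⟨orderOf σ - 1, by omega⟩
  have k : ∀ i ∈ Finset.range q, ∀ x : M,
      ∑ a : N, ((a : X) * σ * (a : X)⁻¹) ^ (i + 1) • x = ∑ a : N, (a : X) • σ ^ (i + 1) • x := by
    intro i hi x
    have os : orderOf (σ ^ (i + 1)) = orderOf σ := Nat.Coprime.orderOf_pow
      ((Nat.coprime_of_lt_prime (by omega) (by rw [Finset.mem_range] at hi; omega) (prime hσ)))
    let φ : N → N := fun a => ⟨a * (σ ^ (i + 1) * (a : X)⁻¹ * (σ ^ (i + 1))⁻¹),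
      mul_mem a.2 (hN.conj_mem _ (inv_mem a.2) _)⟩
    have inj : Function.Injective φ := fun a c e => by
      have e1 : (a : X) * (σ ^ (i + 1) * (a : X)⁻¹ * (σ ^ (i + 1))⁻¹) =
        c * (σ ^ (i + 1) * (c : X)⁻¹ * (σ ^ (i + 1))⁻¹) := congrArg Subtype.val e
      have e2 := Bas1.fpf hP (σ := σ ^ (i + 1)) (os ▸ hσ) ((c : X)⁻¹ * a) (by
        calc _ = (c : X)⁻¹ * (a * (σ ^ (i + 1) * (a : X)⁻¹ * (σ ^ (i + 1))⁻¹)) * σ ^ (i + 1) * a := by
              group
          _ = _ := by rw [e1]; group)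
      have e3 := Nat.dvd_gcd (orderOf_dvd_of_pow_eq_one e2)
        (orderOf_dvd_of_pow_eq_one (h3 _ (mul_mem (inv_mem c.2) a.2)))
      rw [os, show (orderOf σ).gcd 3 = 1 by rcases hσ with e | e <;> rw [e] <;> rfl, Nat.dvd_one,
        orderOf_eq_one_iff, inv_mul_eq_one] at e3
      exact Subtype.ext e3.symm
    refine Fintype.sum_bijective φ (Finite.injective_iff_bijective.1 inj) _ _ fun a => ?_
    rw [conj_pow, ← mul_smul]
    congr 1
    simp only [φ]
    group
  have h1 : ∑ a : N, ∑ i ∈ Finset.range (q + 1), ((a : X) * σ * (a : X)⁻¹) ^ i • m = 0 :=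
    Finset.sum_eq_zero fun a _ => by
      have o : orderOf ((a : X) * σ * (a : X)⁻¹) = orderOf σ := (MulAut.conj (a : X)).orderOf_eq σ
      have := MdA.norm hM (o ▸ hσ) m
      rwa [o, hq] at this
  have h2 := MdA.norm hM hσ m
  rw [hq, Finset.sum_range_succ', pow_zero, one_smul, add_eq_zero_iff_eq_neg,
    neg_eq_of_add_eq_zero_left (hM.two m)] at h2
  rw [Finset.sum_comm, Finset.sum_range_succ', Finset.sum_congr rfl fun i hi => k i hi m,
    Finset.sum_comm] at h1
  simp only [← Finset.smul_sum, h2, pow_zero, one_smul, Finset.sum_const, Finset.card_univ] at h1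
  obtain ⟨j, hj⟩ := ho
  rw [← Nat.card_eq_fintype_card, hj, add_nsmul, mul_comm, mul_nsmul', two_nsmul, hM.two, nsmul_zero,
    zero_add, one_nsmul, add_eq_zero_iff_eq_neg, neg_eq_of_add_eq_zero_left (hM.two m)] at h1
  conv_lhs => rw [← h1, Finset.smul_sum]
  conv_rhs => rw [← h1]
  exact Fintype.sum_equiv (Equiv.mulLeft (⟨b, hb⟩ : N)) _ _ fun a => (mul_smul b a m).symm

theorem nab [Bas1.{u}] [MdA.{u, u}] [MdB.{u, u}] {M : Type u} [AddCommGroup M] [Finite M]
    [DistribMulAction X M] (hP : Le8 X) (ns : ¬ Group.IsSolvable X) (h2 : pCore 2 X = ⊥) (hM : Md X M)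
    (hF : Fth X M) (A : Subgroup X) (hA : A.Normal) (hc : IsMulCommutative A) : A = ⊥ := by
  by_contra k
  have : Group.IsSolvable A := Group.isSolvable_of_comm hc.is_comm.comm
  obtain ⟨p, N, hp, h1, -, -, he, hN⟩ := Solv.exists_isMinNormal_elementary_le A k
  have hn := h1.normal
  have := Fact.mk hp
  obtain ⟨a, ha, a1⟩ := N.bot_or_exists_ne_one.resolve_left h1.ne_bot
  have oa : orderOf a = p := orderOf_eq_prime (he a ha) a1
  have p8 := oa ▸ hP a
  have hp' : p = 2 ∨ p = 3 ∨ p = 5 ∨ p = 7 := by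
    have := hp.two_le
    interval_cases p <;> first | omega | norm_num at hp
  obtain ⟨n, hc⟩ := IsPGroup.iff_card.1 hN
  rcases hp' with rfl | rfl | hp'
  · exact h1.ne_bot (le_bot_iff.1 (h2 ▸ le_sSup (s := {N : Subgroup X | N.Normal ∧ IsPGroup 2 N}) ⟨hn, hN⟩ : N ≤ ⊥))
  · obtain ⟨q, hq, hd⟩ := ex hP (N := ⊤) fun k => ns (Group.isSolvable_of_surjective
      (f := (⊤ : Subgroup X).subtype) fun g => ⟨⟨g, trivial⟩, rfl⟩)
    have := Fact.mk (prime hq)
    obtain ⟨σ, hσ⟩ := exists_prime_orderOf_dvd_card' (G := X) q (card_top (G := X) ▸ hd)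
    exact a1 (hF a fun m => three hP hM (hσ ▸ hq) he (hc ▸ Odd.pow (by decide)) m ha)
  · have hM0 : Nontrivial M := by
      by_contra k
      rw [not_nontrivial_iff_subsingleton] at k
      exact a1 (hF a fun m => Subsingleton.elim _ _)
    have n1 : n = 1 := by
      have d := hc ▸ card_subgroup_dvd_card N
      obtain ⟨k1, k2⟩ := MdB.nsq hP hM hM0
      rcases n with _ | _ | n
      · exact absurd (card_eq_one.1 hc) h1.ne_bot
      · rfl
      · have := (pow_dvd_pow p (by omega : 2 ≤ n + 1 + 1)).trans d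
        rcases hp' with rfl | rfl
        exacts [absurd this k1, absurd this k2]
    have : IsCyclic N := isCyclic_of_prime_card (by rw [hc, n1, pow_one])
    have : Group.IsSolvable (MulAut N) := Group.isSolvable_of_isSolvable_injective
      (f := (IsCyclic.mulAutMulEquiv N).toMonoidHom) (IsCyclic.mulAutMulEquiv N).injective
    have := sol hP (oa ▸ hp') (N := (MulAut.conjNormal : X →* MulAut N).ker) fun g hg =>
      mul_inv_eq_iff_eq_mul.1 (congrArg Subtype.val (DFunLike.congr_fun (MonoidHom.mem_ker.1 hg) ⟨a, ha⟩))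
    exact ns (Group.isSolvable_of_ker_le_range (MulAut.conjNormal : X →* MulAut N).ker.subtype
      (MulAut.conjNormal : X →* MulAut N) (range_subtype _).ge)

end SocH

theorem pf_Soc [Bas1.{u}] [MdA.{u, u}] [MdB.{u, u}] : Soc.{u} := ⟨SocH.soc, SocH.nab⟩

end Cfsg.Lib.P8
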