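import Cfsg.Agent.P8.Stm

/-!
# The solvable quotient with its faithful module
-/

set_option autoImplicit false

namespace Cfsg.Lib.P8

open Subgroup Cfsg.Lib.Trans Cfsg.Lib.Gold

universe u v

theorem pf_SvB [PjB.{u, u}] [Brg.{u, u}] [MdB.{u, u}] : SvB.{u} := ⟨by
  intro G _ _ hP N hs hc
  obtain ⟨X, _, _, π, hπ, h2⟩ := Brg.quo.{u, u} N
  obtain ⟨M, _, _, _, p, hM, hS⟩ := Brg.sec hP hπ (Brg.phi.{u, u} hπ.two (PjB.one hπ).2.2.2.1)
  have hF : Fth X M := Brg.fth hπ rfl hc hS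
  obtain ⟨-, -, h8, hsol, -⟩ := PjB.card hπ
  have hn : ¬ 25 ∣ Nat.card X ∧ ¬ 49 ∣ Nat.card X := by
    rcases subsingleton_or_nontrivial M with h | h
    · have : Subsingleton X := ⟨fun a b => by
        rw [hF a fun m => Subsingleton.elim _ _, hF b fun m => Subsingleton.elim _ _]⟩
      rw [Nat.card_of_subsingleton (1 : X)]
      norm_num
    · exact MdB.nsq (h8 hP) hM h
  exact ⟨X, inferInstance, inferInstance, π, M, inferInstance, inferInstance, inferInstance, p, hπ,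
    ⟨h8 hP, hsol hs, h2, MdB.noE hM hF, hn.1, hn.2⟩, hM, hF, hS⟩⟩

end Cfsg.Lib.P8
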