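import Cfsg.Agent.P8.Stm

/-!
# The TI lemma
-/

set_option autoImplicit false

namespace Cfsg.Lib.P8

open Subgroup Cfsg.Lib.Trans Cfsg.Lib.Gold
open scoped commutatorElement

universe u v

namespace T1H

variable {G : Type u} [Group G] {H Q W H' Q' W' : Subgroup G}

theorem ea_iff {A : Subgroup G} : EA A ↔ ∀ a ∈ A, a * a = 1 :=
  ⟨fun h a ha => by rw [← sq, h.2 a ha], fun h => ⟨⟨⟨fun a b => Subtype.ext (by
    have e := fun x hx => inv_eq_of_mul_eq_one_right (h x hx)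
    change a.1 * b.1 = b.1 * a.1
    rw [← e _ (mul_mem a.2 b.2), mul_inv_rev, e _ a.2, e _ b.2])⟩⟩, fun a ha => by rw [sq, h a ha]⟩⟩

theorem ea_cj {A : Subgroup G} (h : EA A) (g : G) : EA (cj g A) := ea_iff.2 (by
  rintro _ ⟨a, ha, rfl⟩
  rw [← map_mul, ea_iff.1 h a ha, map_one])

theorem ea_two {A : Subgroup G} (h : EA A) : IsPGroup 2 A := fun a =>
  ⟨1, Subtype.ext (h.2 a a.2)⟩

theorem cj_C1 (g a : G) : cj g (C1 a) = C1 (g * a * g⁻¹) := by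
  rw [cj_centralizer_set, Set.image_singleton]

theorem comm_of {A B : Subgroup G} (d : A ⊓ B = ⊥) {a b : G} (ha : a ∈ A) (hb : b ∈ B)
    (h1 : a ∈ Ns B) (h2 : b ∈ Ns A) : a * b = b * a := by
  have : a * b * a⁻¹ * b⁻¹ ∈ A ⊓ B := mem_inf.2 ⟨by
    simpa only [mul_assoc] using A.mul_mem ha (mem_normalizer_conj h2 (A.inv_mem ha)),
    mul_mem (mem_normalizer_conj h1 hb) (inv_mem hb)⟩
  rwa [d, mem_bot, mul_inv_eq_one, mul_inv_eq_iff_eq_mul] at this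

/-- The facts invariant under conjugation. -/
structure K (H Q W : Subgroup G) : Prop where
  ea : EA W
  nw : Ns W = H
  cs : Cs W = Q
  c8 : 8 ≤ Nat.card W
  cw : ∀ w ∈ W, w ≠ 1 → C1 w ≤ H
  inv4 : ∀ j ∈ H, j ∉ Q → j * j ∈ Q → Nat.card ↥(W ⊓ C1 j) = 4
  rk : ∀ A : Subgroup G, A ≤ H → EA A → Q.relIndex A ≤ 4

theorem K.le (k : K H Q W) : W ≤ Q := k.cs ▸ (have := k.ea.1; le_centralizer W)

theorem K.cj (k : K H Q W) (g : G) : K (cj g H) (cj g Q) (cj g W) where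
  ea := ea_cj k.ea g
  nw := by rw [← k.nw]; exact (cj_normalizer g W).symm
  cs := by rw [← k.cs]; exact (cj_centralizer g W).symm
  c8 := (card_cj g W).symm ▸ k.c8
  cw := by
    rintro _ ⟨w, hw, rfl⟩ w1
    exact (cj_C1 g w).ge.trans (cj_mono g (k.cw w hw fun e => w1 (by rw [e, map_one])))
  inv4 := by
    rintro _ ⟨j, hj, rfl⟩ h1 h2
    have := k.inv4 j hj (fun e => h1 ⟨j, e, rfl⟩) (by rwa [← map_mul, mem_map_iff_mem
      (MulAut.conj g).injective] at h2)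
    rwa [← card_cj g, cj_inf, cj_C1] at this
  rk := fun A h e => by
    have := k.rk (Trans.cj g⁻¹ A) (cj_inv_le_iff_le_cj.2 h) (ea_cj e _)
    rwa [← relIndex_cj g, cj_cj_inv] at this

variable [Finite G]

theorem inQ (k : K H Q W) (k' : K H' Q' W') (d : W ⊓ W' = ⊥) (h : W' ≤ H) : W' ≤ Q := by
  obtain ⟨a, ha, a1⟩ := (Q ⊓ W').bot_or_exists_ne_one.resolve_left fun e => by
    have h1 := Solv.card_inf_mul_relIndex Q W'
    have := k.rk W' h k'.ea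
    have := k'.c8
    rw [e, card_bot] at h1
    omega
  exact fun b hb => k.cs ▸ fun w hw => comm_of d hw hb (k'.nw ▸ k'.cw a ha.2 a1
    (mem_centralizer_singleton_iff.2 ((k.cs ▸ ha.1 : a ∈ Cs W) w hw))) (k.nw ▸ h hb)

theorem side [Bas1.{u}] (k : K H Q W) (k' : K H' Q' W') (d : W ⊓ W' = ⊥) (hn : ¬ W' ≤ Q) :
    W' ⊓ Q = ⊥ ∧ (∀ j ∈ W' ⊓ H, j ≠ 1 → W ⊓ C1 j = W ⊓ H' ∧ Nat.card ↥(W ⊓ H') = 4) ∧
      W ≤ Ns ((W ⊓ H') ⊔ (W' ⊓ H)) := by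
  have h1 : W' ⊓ Q = ⊥ := eq_bot_iff.2 fun j hj => by_contra fun j1 => hn
    ((le_centralizer_iff.1 ((inQ k' k (inf_comm W W' ▸ d) fun w hw => k'.cw j hj.1 j1
      (mem_centralizer_singleton_iff.2 (k.cs.ge hj.2 w hw))).trans k'.cs.ge)).trans k.cs.le)
  have h2 : ∀ j ∈ W' ⊓ H, j ≠ 1 → W ⊓ C1 j = W ⊓ H' := fun j hj j1 =>
    le_antisymm (inf_le_inf_left _ (k'.cw j hj.1 j1)) fun i hi => ⟨hi.1,
      mem_centralizer_singleton_iff.2 (comm_of d hi.1 hj.1 (k'.nw.ge hi.2) (k.nw.ge hj.2))⟩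
  have sq := ea_iff.1 k'.ea
  refine ⟨h1, fun j hj j1 => ⟨h2 j hj j1, h2 j hj j1 ▸ k.inv4 j hj.2
    (fun e => j1 (mem_bot.1 (h1 ▸ ⟨hj.1, e⟩))) (sq j hj.1 ▸ one_mem Q)⟩,
    fun a ha => mem_normalizer_of_cj_le ?_⟩
  rw [cj_sup]
  refine sup_le (cj_le_iff.2 fun i hi => mem_sup_left ?_) (cj_le_iff.2 fun j hj => ?_)
  · rwa [conj_eq_of_mem_centralizer (k.cs ▸ k.le ha : a ∈ Cs W) hi.1]
  by_cases j1 : j = 1
  · simp [j1]
  have h3 : ⁅a, j⁆ ∈ W ⊓ C1 j := mem_inf.2 ⟨by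
      simpa only [commutatorElement_def, mul_assoc] using
        W.mul_mem ha (mem_normalizer_conj (k.nw.ge hj.2) (W.inv_mem ha)),
    (Bas1.half k.ea (k.nw ▸ hj.2) (sq j hj.1 ▸ one_mem _)).2.1
      (commutator_mem_commutator ha (mem_zpowers j))⟩
  rw [show a * j * a⁻¹ = ⁅a, j⁆ * j by simp [commutatorElement_def]]
  exact mul_mem_sup (h2 j hj j1 ▸ h3) hj

theorem base [Bas2.{u}] [BasJ.{u}] (h : TT H Q W) : K H Q W := by
  have c8 : 8 ≤ Nat.card W := by rcases h.ws.ex with e | e <;> omega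
  have nw := Bas2.nor h.mx.mx (ea_two h.ws.ea) (fun e => by rw [e, card_bot] at c8; omega) h.ws.nor
  exact ⟨h.ws.ea, nw, le_antisymm (fun x hx => h.ws.cq ⟨nw ▸ centralizer_le_normalizer _ hx, hx⟩)
    ((BasJ.leT Q).2.2.2.2.2.1.trans (centralizer_le h.ws.le)), c8, h.cw, h.ws.inv4, h.ws.rk⟩

omit [Finite G] in
theorem ti (h : TT H Q W) (g : G) (e : W ⊓ cj g W ≠ ⊥) : g ∈ H := by
  obtain ⟨_, ⟨hw, w, hw', rfl⟩, w1⟩ := (bot_or_exists_ne_one _).resolve_left e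
  have w2 : w ≠ 1 := fun e => w1 (by rw [e, map_one])
  obtain ⟨x, hx, f⟩ := h.ws.tr w hw' w2 _ hw w1
  have : x⁻¹ * g ∈ H := h.cw w hw' w2 (mem_centralizer_singleton_iff.2 (by
    change x * w * x⁻¹ = g * w * g⁻¹ at f
    calc x⁻¹ * g * w = x⁻¹ * (g * w * g⁻¹) * g := by group
      _ = _ := by rw [← f]; group))
  exact (mul_mem_cancel_left (inv_mem hx)).1 this

theorem disj [Bas2.{u}] [BasJ.{u}] (h : TT H Q W) {g : G} (hn : ¬ cj g W ≤ Q) : W ⊓ cj g W = ⊥ :=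
  by_contra fun e => hn ((cj_eq_of_mem_normalizer ((base h).nw.ge (ti h g e))).le.trans (base h).le)

theorem ij [Bas1.{u}] [BasJ.{u}] {g : G} (k : K H Q W) (d : W ⊓ cj g W = ⊥) (e : cj g W ⊓ H ≠ ⊥)
    (hn : ¬ cj g W ≤ Q) : IJ H Q W g := by
  have k' := k.cj g
  obtain ⟨a1, a2, a3⟩ := side k k' d hn
  obtain ⟨b1, b2, b3⟩ := side k' k ((inf_comm _ _).trans d) fun l =>
    hn ((le_centralizer_iff.1 (l.trans k'.cs.ge)).trans k.cs.le)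
  obtain ⟨j, hj, j1⟩ := (bot_or_exists_ne_one _).resolve_left e
  have cI := (a2 j hj j1).2
  obtain ⟨i, hi, i1⟩ := (W ⊓ cj g H).bot_or_exists_ne_one.resolve_left fun e => by
    rw [e, card_bot] at cI; omega
  have nor : W ⊔ cj g W ≤ Ns ((W ⊓ cj g H) ⊔ (cj g W ⊓ H)) := sup_le a3 (by rwa [sup_comm])
  have cm : ∀ i ∈ W ⊓ cj g H, ∀ j ∈ cj g W ⊓ H, i * j = j * i := fun i hi j hj =>
    comm_of d hi.1 hj.1 (k'.nw.ge hi.2) (k.nw.ge hj.2)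
  have mem : ∀ x ∈ (W ⊓ cj g H) ⊔ (cj g W ⊓ H), ∃ i ∈ W ⊓ cj g H, ∃ j ∈ cj g W ⊓ H, i * j = x :=
    fun x => (Solv.Coprime.mem_sup_iff fun j hj => centralizer_le_normalizer _
      fun i hi => cm i hi j hj).1
  have ea : EA ((W ⊓ cj g H) ⊔ (cj g W ⊓ H)) := ea_iff.2 fun x hx => by
    obtain ⟨i, hi, j, hj, rfl⟩ := mem x hx
    rw [mul_assoc, ← mul_assoc j, ← cm i hi j hj, mul_assoc, ea_iff.1 k'.ea j hj.1, mul_one,
      ea_iff.1 k.ea i hi.1]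
  refine ⟨cI, (b2 i hi i1).2, a1, b1, d, fun j hj j1 => (a2 j hj j1).1,
    fun i hi i1 => (b2 i hi i1).1, nor, ea, fun p2 => ?_⟩
  obtain ⟨x, hx, x1, c⟩ := BasJ.zfix p2 (ea_two ea) (bot_lt_iff_ne_bot.2 fun e =>
    j1 (mem_bot.1 (e.le (mem_sup_right hj)))) le_normalizer_of_normal nor le_normalizer_of_normal
  obtain ⟨i, hi, j, hj, rfl⟩ := mem x hx
  have c' := fun t ht => (commutatorElement_eq_one_iff_mul_comm.1 (mem_bot.1 (c t ht))).symm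
  have e1 : j ∈ Q := (mul_mem_cancel_left (k.le hi.1)).1 (k.cs.le fun t ht => (c' t (mem_sup_left ht)))
  have e2 : i ∈ cj g Q :=
    (mul_mem_cancel_right (k'.le hj.1)).1 (k'.cs.le fun t ht => c' t (mem_sup_right ht))
  exact x1 (by
    rw [mem_bot.1 (a1.le ⟨hj.1, e1⟩), mem_bot.1 (b1.le ⟨hi.1, e2⟩), mul_one]; exact one_mem _)

end T1H

open T1H in
theorem pf_T1 [Bas1.{u}] [Bas2.{u}] [BasJ.{u}] : T1.{u} where
  nw h := ⟨(base h).nw, (base h).cs, (base h).le, (base h).c8⟩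
  ti := ti
  inQ h g e := by_contra fun hn => hn (inQ (base h) ((base h).cj g) (disj h hn) e)
  ij h _ e := or_iff_not_imp_left.2 fun hn => ij (base h) (disj h hn) e hn

end Cfsg.Lib.P8
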