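import Cfsg.Agent.P8.T1

/-!
# The Sylow subgroup in the TI situation
-/

set_option autoImplicit false

namespace Cfsg.Lib.P8

open Subgroup Cfsg.Lib.Trans Cfsg.Lib.Gold
open scoped commutatorElement

universe u v

namespace T2H

open T1H

variable {G : Type u} [Group G] {H Q W T N : Subgroup G}

theorem le_wc {g : G} (h : cj g W ≤ T) : cj g W ≤ Wc W T :=
  le_iSup (fun g : {g : G // cj g W ≤ T} => cj (g : G) W) ⟨g, h⟩

theorem wc_le {U : Subgroup G} (h : ∀ g, cj g W ≤ T → cj g W ≤ U) : Wc W T ≤ U :=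
  iSup_le fun g => h g g.2

theorem wc_eq {U : Subgroup G} (h : ∀ g, cj g W ≤ T → cj g W ≤ U) (h' : U ≤ T) : Wc W T = Wc W U :=
  le_antisymm (wc_le fun g k => le_wc (h g k)) (wc_le fun _ k => le_wc (k.trans h'))

variable [Finite G]

theorem wc_nor : Ns T ≤ Ns (Wc W T) := fun g hg => mem_normalizer_of_cj_le
  (cj_le_iff_le_cj_inv.2 (wc_le fun k hk => cj_le_iff_le_cj_inv.1 (by
    rw [cj_cj]
    exact le_wc (by rw [cj_mul, ← cj_eq_of_mem_normalizer hg]; exact cj_mono g hk))))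

/-- A subgroup all of whose conjugates lie in a 2-group lies in the 2-core. -/
theorem le_O2 [BasJ.{u}] {A : Subgroup G} (hQ : IsPGroup 2 Q) (hA : A ≤ N)
    (h : ∀ n ∈ N, cj n A ≤ Q) : A ≤ O2 N := by
  refine le_trans (le_inf hA (le_iInf fun n : N => cj_inv_le_iff_le_cj.1 (h _ (inv_mem n.2))))
    ((BasJ.o2 N).2.2.2.1 (N ⊓ ⨅ n : N, cj n Q) inf_le_left (hQ.to_le (inf_le_right.trans
      ((iInf_le _ 1).trans (cj_one Q).le))) fun m hm => mem_normalizer_of_cj_le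
        (cj_le_iff.2 fun x hx => ⟨N.mul_mem (N.mul_mem hm hx.1) (N.inv_mem hm), mem_iInf.2 fun n => ?_⟩))
  have := mem_cj.1 (mem_iInf.1 hx.2 (⟨m, hm⟩⁻¹ * n))
  exact mem_cj.2 (by simpa [mul_assoc] using this)

theorem syl [Bas2.{u}] [T1.{u}] (h : TT H Q W) (hT : IsSylowIn 2 T H) :
    IsSylowIn 2 T ⊤ ∧ Ns (Wc W T) = H := by
  have := Fact.mk Nat.prime_two
  obtain ⟨nw, cs, le, c8⟩ := T1.nw h
  have QT := (h.ws.d8 T hT).1
  have h1 : Ns (Wc W T) = H := Bas2.nor h.mx.mx (hT.isPGroup.to_le (wc_le fun _ k => k))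
    (fun e => by
      rw [le_bot_iff.1 (((cj_one W).ge.trans (le_wc ((cj_one W).le.trans (le.trans QT)))).trans
        e.le), card_bot] at c8
      omega) (by
      rw [wc_eq (fun g k => T1.inQ h g (k.trans hT.le)) QT, ← nw, ← cs]
      exact (normalizer_le_normalizer_centralizer W).trans wc_nor)
  obtain ⟨S, hS, k⟩ := exists_isSylowIn_ge hT.isPGroup (le_top : T ≤ ⊤)
  refine ⟨k.eq_or_lt.elim (fun e => e ▸ hS) fun l => ?_, h1⟩
  have := lt_inf_normalizer hS.isPGroup l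
  exact (this.ne' (hT.eq_of_le hS.isPGroup.to_inf_left this.le
    (inf_le_right.trans (wc_nor.trans h1.le)))).elim

theorem inD [Bas2.{u}] [BasJ.{u}] [T1.{u}] (h : TT H Q W) (hT : IsSylowIn 2 T H) (TN : T ≤ N)
    (lr : Lr N) (hW : W ≤ O2 N) : N ≤ H := by
  obtain ⟨s1, s2⟩ := syl h hT
  obtain ⟨nw, cs, le, c8⟩ := T1.nw h
  obtain ⟨-, -, o3, -, o5⟩ := BasJ.o2 N
  have DT := o5 T (s1.mono TN le_top)
  have nD : ∀ n ∈ N, cj n (O2 N) = O2 N := fun n hn => cj_eq_of_mem_normalizer (o3 (le_normalizer hn))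
  suffices k : ∀ g, cj g W ≤ T → cj g W ≤ O2 N by
    rw [← s2, wc_eq k DT]
    exact le_normalizer.trans (o3.trans wc_nor)
  intro g hg
  obtain ⟨j, hj, j1⟩ := (O2 N ⊓ cj g W).bot_or_exists_ne_one.resolve_left fun e => by
    have h1 := Solv.card_inf_mul_relIndex (O2 N) (cj g W)
    have := lr _ (hg.trans TN) (ea_cj h.ws.ea g)
    rw [e, card_bot, card_cj] at h1
    omega
  refine le_O2 (hT.isPGroup.to_le (h.ws.d8 T hT).1) (hg.trans TN) fun n hn => ?_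
  rw [cj_cj]
  refine (T1.ij h _ fun e => j1 ?_).resolve_right fun k => k.not2 ((isPGroup_cj hT.isPGroup n).to_le
    (sup_le (hW.trans ((nD n hn).ge.trans (cj_mono n DT))) (cj_mul n g W ▸ cj_mono n hg)))
  exact conj_eq_one_iff.1 (mem_bot.1 (e.le ⟨cj_mul n g W ▸ conj_mem_cj.2 hj.2,
    hT.le (DT ((nD n hn).le (conj_mem_cj.2 hj.1)))⟩))

theorem fin [Bas2.{u}] [WL.{u}] [T1.{u}] (h : TT H Q W) (hT : IsSylowIn 2 T H) (hQ : Q ≤ W) :
    SR4 G := by
  obtain ⟨nw, cs, le, -⟩ := T1.nw h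
  obtain rfl := le_antisymm hQ le
  obtain ⟨d1, d2, d3⟩ := h.ws.d8 T hT
  refine Bas2.sr (syl h hT).1 (h.ws.ex.elim (fun e => WL.out hT.isPGroup d1 (hT.le.trans nw.ge)
    h.ws.ea e.1 d2 d3 fun j hj => h.ws.inv4 j (hT.le hj))
    fun e => Bas2.sr8 hT.isPGroup d1 h.ws.ea e.1 (inf_le_right.trans cs.le))

end T2H

theorem pf_T2 [Bas2.{u}] [BasJ.{u}] [WL.{u}] [T1.{u}] : T2.{u} :=
  ⟨T2H.syl, fun h hT TN _ => T2H.inD h hT TN, T2H.fin⟩

end Cfsg.Lib.P8
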