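import Cfsg.Agent.P8.T2

/-!
# The set-up when `W` is not contained in the 2-core
-/

set_option autoImplicit false

namespace Cfsg.Lib.P8

open Subgroup Cfsg.Lib.Trans Cfsg.Lib.Gold
open scoped commutatorElement

universe u v

open T1H in
theorem pf_T4 [BasJ.{u}] [T1.{u}] [T2.{u}] : T4.{u} := ⟨fun {G _ _ H Q W T N} h hT TN ch lr hn => by
  obtain ⟨s1, -⟩ := T2.syl h hT
  obtain ⟨nw, cs, le, c8⟩ := T1.nw h
  obtain ⟨o1, -, o3, -, o5⟩ := BasJ.o2 N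
  have DT := o5 T (s1.mono TN le_top)
  have QT := (h.ws.d8 T hT).1
  have nD : ∀ n ∈ N, cj n (O2 N) = O2 N := fun n hn => cj_eq_of_mem_normalizer (o3 (le_normalizer hn))
  have TW := hT.le.trans nw.ge
  have W2 := ea_two h.ws.ea
  obtain ⟨w, hw, w1, wc⟩ := BasJ.zfix hT.isPGroup W2 (bot_lt_iff_ne_bot.2 fun e => by
    rw [e, card_bot] at c8; omega) le_normalizer_of_normal TW le_normalizer_of_normal
  have wD : w ∈ Cs (O2 N) := fun d hd =>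
    (commutatorElement_eq_one_iff_mul_comm.1 (mem_bot.1 (wc d (DT hd)))).symm
  have y1 : ∀ n ∈ N, n * w * n⁻¹ ∈ H := fun n hn =>
    hT.le (DT ((nD n hn).le (conj_mem_cj.2 (ch ⟨TN (QT (le hw)), wD⟩))))
  have y2 : ∀ n : G, n * w * n⁻¹ ≠ 1 := fun n e => w1 (conj_eq_one_iff.1 e)
  have h1 : ∀ n ∈ N, cj n W ≤ Q ∨ IJ H Q W n := fun n hn =>
    T1.ij h n fun e => y2 n (mem_bot.1 (e.le ⟨conj_mem_cj.2 hw, y1 n hn⟩))
  obtain ⟨n, hn', k⟩ : ∃ n ∈ N, IJ H Q W n := by_contra fun e => hn (T2H.le_O2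
    (hT.isPGroup.to_le QT) (le.trans (QT.trans TN)) fun n k => (h1 n k).resolve_right fun l =>
      e ⟨n, k, l⟩)
  have h2 : ∀ n ∈ N, W ⊓ O2 N ≤ W ⊓ cj n H := fun n hn =>
    inf_le_inf_left _ ((nD n hn).ge.trans (cj_mono n (DT.trans hT.le)))
  have WN : W ≤ Ns (O2 N) := le.trans (QT.trans (TN.trans (le_normalizer.trans o3)))
  refine ⟨h1, ⟨n, hn', k⟩, fun n hn _ => h2 n hn, k.cI ▸ Trans.card_le_of_le (h2 n hn'),
    lr W (le.trans (QT.trans TN)) h.ws.ea, le_inf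
      (Solv.commutator_le_right_of_le_normalizer (DT.trans TW)) (Solv.commutator_le_left_of_le_normalizer WN),
    ⟨_, y1 n hn', fun e => y2 n (mem_bot.1 (k.JQ.le ⟨conj_mem_cj.2 hw, e⟩)),
      ea_iff.1 (ea_cj h.ws.ea n) _ (conj_mem_cj.2 hw), fun d hd => ?_⟩, ?_⟩
  · rw [← cj_C1]
    exact cj_mono n (fun d hd => mem_centralizer_singleton_iff.2 (wD d hd)) ((nD n hn').ge hd)
  · obtain ⟨v, hv, v1, vc⟩ := BasJ.zfix hT.isPGroup W2 (inf_lt_left.2 hn)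
      (Solv.le_normalizer_inf TW (TN.trans (le_normalizer.trans o3))) TW
      (Solv.le_normalizer_inf le_normalizer WN)
    exact ⟨v, hv, fun e => v1 ⟨hv, e⟩, fun t ht => (vc t ht).2⟩⟩

end Cfsg.Lib.P8
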