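import Cfsg.Agent.P8.T1
import Cfsg.Agent.Class.A5Recog

/-!
# Nonsolvable overgroups of the Sylow subgroup in the TI situation
-/

set_option autoImplicit false

namespace Cfsg.Lib.P8

open Subgroup Cfsg.Lib.Trans Cfsg.Lib.Gold
open scoped commutatorElement

universe u v

namespace T5nH

open T1H

variable {G : Type u} [Group G] [Finite G] {D : Subgroup G} {σ : G}

theorem fp [Bas1.{u}] (hP : Le8 G) (hD : IsPGroup 2 D) (o : orderOf σ = 7) {d : G} (hd : d ∈ D)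
    (e : d * σ = σ * d) : d = 1 := by
  obtain ⟨k, hk⟩ := hD ⟨d, hd⟩
  have := Bas1.fpf hP (.inr o) d e
  rw [o] at this
  exact orderOf_eq_one_iff.1 (Nat.eq_one_of_dvd_coprimes (Nat.Coprime.pow_left k (by decide))
    (orderOf_dvd_of_pow_eq_one (congrArg Subtype.val hk)) (orderOf_dvd_of_pow_eq_one this))

theorem ea8 [Bas1.{u}] (hP : Le8 G) (hD : IsPGroup 2 D) (c : Nat.card D = 8) (o : orderOf σ = 7)
    (n : σ ∈ Ns D) : EA D := by
  have := Fact.mk Nat.prime_two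
  have := Fact.mk Nat.prime_seven
  have h1 := Class.card_dvd_ncard_of_conj_free (zpowers σ) {d | d ∈ D ∧ d * d = 1 ∧ d ≠ 1}
    (fun g hg y hy => ⟨mem_normalizer_conj (zpowers_le.2 n hg) hy.1,
      by rw [conj_mul, hy.2.1]; group, fun e => hy.2.2 (conj_eq_one_iff.1 e)⟩)
    fun g hg y hy e => by_contra fun g1 => hy.2.2 (fp hP hD (orderOf_eq_prime (o ▸
      orderOf_dvd_iff_pow_eq_one.1 (orderOf_dvd_of_mem_zpowers hg)) g1) hy.1 e.eq.symm)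
  obtain ⟨z, hz⟩ := exists_prime_orderOf_dvd_card' (G := D) 2 (by rw [c]; decide)
  have h2 := Set.eq_of_subset_of_ncard_le (s := {d | d ∈ D ∧ d * d = 1 ∧ d ≠ 1})
    (t := (D : Set G) \ {1}) (fun d hd => ⟨hd.1, hd.2.2⟩) (by
      rw [Set.ncard_sdiff_singleton_of_mem D.one_mem, show (D : Set G).ncard = 8 from c]
      rw [Nat.card_zpowers, o] at h1
      refine Nat.le_of_dvd ((Set.ncard_pos (Set.toFinite _)).2 ⟨z, z.2, ?_, fun e => ?_⟩) h1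
      · rw [← sq, ← hz, ← coe_pow, pow_orderOf_eq_one, coe_one]
      · rw [show z = 1 from Subtype.ext e, orderOf_one] at hz; omega)
  exact ea_iff.2 fun d hd => by
    by_cases d1 : d = 1
    · rw [d1, mul_one]
    · exact (h2.ge ⟨hd, d1⟩).2.1

theorem pw {n m r : ℕ} (h : ∃ k, n = 2 ^ k) (h1 : m ≤ n) (h2 : n ≤ 64) (h3 : n % r = 1)
    (e : (m = 16 ∧ r = 5) ∨ (m = 8 ∧ r = 7 ∧ n ≤ 16)) : n ≤ m := by
  obtain ⟨k, rfl⟩ := h
  have : k ≤ 6 := (Nat.pow_le_pow_iff_right one_lt_two).1 h2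
  rcases e with ⟨rfl, rfl⟩ | ⟨rfl, rfl, e⟩ <;> interval_cases k <;> omega

end T5nH

open T1H T5nH in
theorem pf_T5n [Bas1.{u}] [Bas2.{u}] [BasJ.{u}] [TyN.{u}] [T1.{u}] [T2.{u}] [T4.{u}] : T5n.{u} :=
  ⟨fun {G _ _ H Q W T N} h hT TN ty hn => by
  have := Fact.mk Nat.prime_two
  have hP := h.gl.p8
  obtain ⟨ch, D0⟩ : Ch N ∧ O2 N ≠ ⊥ := by
    rcases ty with ⟨π, k⟩ | ⟨π, k, -⟩ | ⟨π, k⟩ | ⟨π, k⟩ <;> exact ⟨k.ch, k.ne⟩
  obtain ⟨lr, i8, ty⟩ := TyN.idx hP ty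
  have s1 := (T2.syl h hT).1
  have s2 := s1.mono TN le_top
  obtain ⟨nw, cs, le, c8⟩ := T1.nw h
  obtain ⟨o1, o2, o3, -, o5⟩ := BasJ.o2 N
  have DT := o5 T s2
  obtain ⟨QT, q8, -⟩ := h.ws.d8 T hT
  obtain ⟨t1, -, -, t4, t5, t6, ⟨y, y1, y2, y3, y4⟩, v, v1, v2, v3⟩ := T4.out h hT TN ch lr hn
  replace i8 := i8 T s2
  have Q2 := hT.isPGroup.to_le QT
  have HQ : H ≤ Ns Q := nw ▸ cs ▸ normalizer_le_normalizer_centralizer W
  have ND := le_normalizer.trans o3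
  have pq := IsPGroup.iff_card.1 Q2
  have cl := Trans.card_le_of_le le
  have vT := QT (le v1)
  have vv := ea_iff.1 h.ws.ea v v1
  have ci := Bas1.cidx fun d hd => t6 (commutator_mem_commutator hd v1)
  rcases h.ws.ex with ⟨c, e⟩ | ⟨c, ⟨τ, τ1, τ2⟩, -⟩
  · obtain ⟨σ, σ1, σ2, σ3⟩ := e y y1 y2 y3
    have h1 := (relIndex_le_of_le_left y4 index_ne_zero_of_finite).trans
      ((relIndex_le_of_le_right QT index_ne_zero_of_finite).trans i8)
    exact .inl (eq_of_le_of_card_ge le (c ▸ pw pq (c ▸ cl) ((Bas1.fl5 hP Q2 (HQ y1) (HQ σ1) σ2 y3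
      σ3).trans (Nat.pow_le_pow_left h1 2)) (σ2 ▸ Bas1.md hP (.inl σ2) Q2 (HQ σ1))
        (.inl ⟨rfl, rfl⟩))).ge
  rcases ty with ⟨k, -⟩ | ⟨k, -⟩
  · obtain ⟨σ, σ1, σ2, σ3⟩ := k T s2 v vT v2 vv v3
    have h1 := (Bas1.fl5 hP o2 (ND (TN vT)) (ND σ1) σ2 vv σ3).trans
      (Nat.pow_le_pow_left (ci.trans t4) 2)
    have h2 := card_mul_relIndex DT ▸ Nat.mul_le_mul h1 i8
    rw [← card_mul_relIndex QT, q8] at h2
    exact .inl (eq_of_le_of_card_ge le (c ▸ pw pq (c ▸ cl) (by omega)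
      (τ2 ▸ Bas1.md hP (.inr τ2) Q2 (HQ τ1)) (.inr ⟨rfl, rfl, by omega⟩))).ge
  obtain ⟨⟨a, ha, b, hb, σ, σ1, σ2⟩, d, hd, d1, d2⟩ := k v (TN vT) v2 (vv ▸ one_mem _)
  have h1 := Solv.card_inf_mul_relIndex (O2 N) W
  rw [c, inf_comm] at h1
  by_cases h2 : (O2 N).relIndex W = 2
  · have h3 : W ≤ O2 N ⊔ zpowers v := fun w hw => by
      by_cases k : w ∈ O2 N
      · exact mem_sup_left k
      have : w * v ∈ O2 N := (mul_mem_iff_of_index_two h2 (a := ⟨w, hw⟩) (b := ⟨v, v1⟩)).2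
        (iff_of_false k v2)
      simpa using mul_mem_sup this (inv_mem (mem_zpowers v))
    have h4 := (t1 d hd).resolve_right fun k => k.not2 (d1.to_le (sup_le
      (h3.trans (sup_le_sup_left (zpowers_le.2 (subset_closure (.inl rfl))) _))
      ((cj_mono d h3).trans (by
        rw [cj_sup, cj_eq_of_mem_normalizer (ND hd), cj_zpowers]
        exact sup_le_sup_left (zpowers_le.2 (subset_closure (.inr rfl))) _))))
    exact (d2 (commutatorElement_eq_one_iff_mul_comm.2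
      (cs.ge (h4 (conj_mem_cj.2 v1)) v v1) ▸ one_mem _)).elim
  have h3 : Nat.card ↥(W ⊓ O2 N) ≤ 2 := by
    generalize (O2 N).relIndex W = m at *
    generalize Nat.card ↥(W ⊓ O2 N) = l at *
    interval_cases m <;> omega
  have h4 : ∀ n ∈ N, (C1 (n * v * n⁻¹)).relIndex (O2 N) ≤ 2 := fun n hn => by
    rw [← cj_C1, ← cj_eq_of_mem_normalizer (ND hn), relIndex_cj]
    exact ci.trans h3
  have h5 := Solv.card_inf_mul_relIndex (C1 v ⊓ C1 (a * v * a⁻¹) ⊓ C1 (b * v * b⁻¹)) (O2 N)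
  rw [show C1 v ⊓ C1 (a * v * a⁻¹) ⊓ C1 (b * v * b⁻¹) ⊓ O2 N = ⊥ from eq_bot_iff.2 fun x hx =>
    fp hP o2 σ2 hx.2 (mem_centralizer_singleton_iff.1 ((closure_le (C1 x)).2 (by
      rintro _ (rfl | rfl | rfl)
      exacts [mem_centralizer_singleton_iff.2 (mem_centralizer_singleton_iff.1 hx.1.1.1).symm,
        mem_centralizer_singleton_iff.2 (mem_centralizer_singleton_iff.1 hx.1.1.2).symm,
        mem_centralizer_singleton_iff.2 (mem_centralizer_singleton_iff.1 hx.1.2).symm]) σ1)).symm,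
    card_bot, one_mul] at h5
  have h6 := h5 ▸ relIndex_inf_le.trans (Nat.mul_le_mul (relIndex_inf_le.trans
    (Nat.mul_le_mul (ci.trans h3) (h4 a ha))) (h4 b hb))
  have σN : σ ∈ N := (closure_le N).2 (by
    rintro _ (rfl | rfl | rfl)
    exacts [TN vT, N.mul_mem (N.mul_mem ha (TN vT)) (N.inv_mem ha),
      N.mul_mem (N.mul_mem hb (TN vT)) (N.inv_mem hb)]) σ1
  have h7 := Bas1.md hP (.inr σ2) o2 (ND σN)
  have h8 := (one_lt_card_iff_ne_bot _).2 D0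
  have h9 : Nat.card (O2 N) = 8 := by rw [σ2] at h7; omega
  exact .inr (Bas2.sr s1 (Bas2.sr8 hT.isPGroup DT (ea8 hP o2 h9 σ2 (ND σN)) h9
    ((inf_le_inf_right _ TN).trans ch)))⟩

end Cfsg.Lib.P8
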