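import Cfsg.Agent.P8.T1

/-!
# The types `L₃(2)` and `A₆`
-/

set_option autoImplicit false

namespace Cfsg.Lib.P8

open Subgroup Cfsg.Lib.Trans Cfsg.Lib.Gold
open scoped commutatorElement

universe u v

namespace T6H

open T1H

variable {G : Type u} [Group G] [Finite G] {H Q W : Subgroup G}

theorem tt [Bas2.{u}] [LC.{u}] [TyN.{u}] [T1.{u}] [T2.{u}] [T5t.{u}] [T5n.{u}] [IsSimpleGroup G]
    (na : ¬ IsMulCommutative G) (al : AllTy G) (h : TT H Q W) : SR4 G ∨ Cc G := by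
  have := Fact.mk Nat.prime_two
  obtain ⟨T, hT⟩ := exists_isSylowIn (p := 2) H
  obtain ⟨S, rfl⟩ := (T2.syl h hT).1.exists_sylow_eq
  obtain ⟨nw, -, -, c8⟩ := T1.nw h
  refine or_iff_not_imp_left.2 fun sr => ⟨S, fun e => ?_⟩
  have QW : ¬ Q ≤ W := fun k => sr (T2.fin h hT k)
  have k : charCore (S : Subgroup G) ≤ H := iSup_le fun ⟨C, c1, c2⟩ => by
    have lo : IsTwoLocal (Ns (C.map (S : Subgroup G).subtype)) :=
      ⟨_, hT.isPGroup.to_le (map_subtype_le C), fun e => c1 ((map_eq_bot_iff_of_injective _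
        (subtype_injective _)).1 e), rfl⟩
    have TN : (S : Subgroup G) ≤ Ns (C.map (S : Subgroup G).subtype) :=
      (range_subtype _).ge.trans (by
        rw [MonoidHom.range_eq_map, ← normalizer_eq_top C]; exact le_normalizer_map _)
    have ch := (Bas2.chl h.gl.c2 lo).1
    by_cases so : Group.IsSolvable ↥(Ns (C.map (S : Subgroup G).subtype))
    · exact T2.inD h hT TN ch (LC.lr h.gl.p8 so ch)
        (by_contra fun d => QW (T5t.out h hT TN ch so d))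
    · exact T2.inD h hT TN ch (TyN.idx h.gl.p8 (al _ lo so)).1
        (by_contra fun d => (T5n.out h hT TN (al _ lo so) d).elim QW sr)
  have n : W.Normal := normalizer_eq_top_iff.1 (top_le_iff.1 (e.ge.trans (k.trans nw.ge)))
  obtain d | d := n.eq_bot_or_eq_top
  · rw [d, card_bot] at c8
    omega
  have := h.ws.ea.1
  exact na ⟨⟨fun a b => (le_centralizer W (d.ge (mem_top b)) a (d.ge (mem_top a)))⟩⟩

end T6H

open T1H in
theorem pf_T6 [Bas2.{u}] [BasJ.{u}] [LC.{u}] [TyN.{u}] [WS8a.{u}] [WS8b.{u}] [WS16a.{u}] [WS16b.{u}]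
    [CW1.{u}] [CW2.{u}] [T1.{u}] [T2.{u}] [T5t.{u}] [T5n.{u}] : T6.{u} :=
  ⟨fun na al _ _ _ => T6H.tt na al, fun {G _ _ _} na gl al {H Q π} mx ty => by
    have := Fact.mk Nat.prime_two
    obtain ⟨W, π', c, h1, h2, ty', crd⟩ := WS8a.out gl.p8 ty
    obtain ⟨ws, c8⟩ := WS8b.out gl.p8 ty' h1 h2 crd
    by_cases hc : ∀ w ∈ W, w ≠ 1 → C1 w ≤ H
    · exact T6H.tt na al ⟨gl, mx, ws, hc⟩
    push Not at hc
    obtain ⟨w, hw, w1, hc⟩ := hc
    obtain ⟨R, x, st, WR⟩ := ws.stb w hw w1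
    obtain ⟨j, Y, y1, y2, y3, y4, y5, y6⟩ := (CW1.out gl mx ws hw w1 st).resolve_left hc
    have QW := CW2.eight gl.p8 mx ty' ws c8 (by_contra fun e =>
      j (CW2.noff gl.p8 mx ws hw w1 st (.inr e))) crd hw w1 st (WR c8) y1 y2 y3 y4 y5 y6
    have nw := Bas2.nor mx.mx (ea_two ws.ea) (fun e => by rw [e, card_bot] at c8; omega) ws.nor
    obtain ⟨T, hT, WT⟩ := exists_isSylowIn_ge (ea_two ws.ea) (le_top : W ≤ ⊤)
    exact .inl (Bas2.sr hT (Bas2.sr8 hT.isPGroup WT ws.ea c8 fun a ha =>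
      QW (ws.cq ⟨nw.le (centralizer_le_normalizer _ ha.2), ha.2⟩))),
  fun {G _ _ _} na gl al {H Q π} mx ty => by
    obtain ⟨W, π', e, h1, h2, ty', crd, c, h3, h4⟩ := WS16a.out gl.p8 ty
    have ws := WS16b.out gl.p8 ty' h1 h2 crd c h3 h4
    refine T6H.tt na al ⟨gl, mx, ws, fun w hw w1 => ?_⟩
    obtain ⟨R, x, st, -⟩ := ws.stb w hw w1
    exact (CW1.out gl mx ws hw w1 st).resolve_right fun k =>
      k.1 (CW2.noff gl.p8 mx ws hw w1 st (.inl c))⟩

end Cfsg.Lib.P8
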