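import Cfsg.Agent.P8.Stm
import Cfsg.Agent.Solv.SecRank
import Cfsg.Agent.Solv.MinNormal

/-!
# Groups with element orders at most 8: an elementary abelian subgroup of order 16 without transvections
-/

set_option autoImplicit false

namespace Cfsg.Lib.P8

open Subgroup Cfsg.Lib.Trans Cfsg.Lib.Gold
open scoped commutatorElement

universe u

namespace WLH

theorem core [Bas1.{u}] {T : Type u} [Group T] [Finite T] {V : Subgroup T} [hV : V.Normal] (c16 : Nat.card V = 16)
    (i8 : V.index = 8) (ht : ∃ t : T, t * t ∉ V) (hj : ∀ j : T, j ∉ V → j * j ∈ V → Nat.card ↥(V ⊓ C1 j) = 4) :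
    SR4 T := by
  refine Solv.PG.secRank_of_le fun H K hKH hc hs => ?_
  by_contra hn
  push Not at hn
  have e1 := Solv.relIndex_mul_card_of_le hKH
  have e2 := Solv.relIndex_mul_card_inf V H
  have e3 := Solv.relIndex_mul_card_inf V K
  have hd : 0 < Nat.card ↥(V ⊓ K) := Nat.card_pos
  have hb : 0 < V.relIndex K := Nat.pos_of_ne_zero index_ne_zero_of_finite
  have hcle : Nat.card ↥(V ⊓ H) ≤ 16 := c16 ▸ Subgroup.card_le_of_le inf_le_left
  have ha : V.relIndex H ≤ 4 * V.relIndex K := by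
    have h1 : V.relIndex H ∣ 8 := i8 ▸ relIndex_dvd_index_of_normal V H
    have h2 : V.relIndex H ≤ 8 := Nat.le_of_dvd (by norm_num) h1
    by_cases h8 : V.relIndex H = 8
    · have h3 : H ⊔ V = ⊤ := by
        have h4 := relIndex_mul_index (le_sup_right : V ≤ H ⊔ V)
        rw [relIndex_sup_right, h8, i8] at h4
        exact index_eq_one.1 (by omega)
      obtain ⟨t, ht⟩ := ht
      have h5 : t ∈ H ⊔ V := h3 ▸ mem_top t
      rw [← SetLike.mem_coe, mul_normal] at h5
      obtain ⟨h, hh, v, hv, rfl⟩ := h5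
      have h6 : V.relIndex K ≠ 1 := fun h7 => ht (by
        have h9 : h ^ 2 ∈ V := relIndex_eq_one.1 h7 (hs h hh)
        have : h * v * (h * v) = h ^ 2 * ((h⁻¹ * v * h) * v) := by rw [pow_two]; group
        rw [this]
        exact mul_mem h9 (mul_mem (hV.conj_mem' v hv h) hv))
      omega
    · interval_cases V.relIndex H <;> omega
  have h4 : 4 * Nat.card ↥(V ⊓ K) < Nat.card ↥(V ⊓ H) := by
    rw [← e3, ← e2] at e1
    by_contra hcon
    push Not at hcon
    have h1 : V.relIndex H * Nat.card ↥(V ⊓ H) ≤ 4 * V.relIndex K * (4 * Nat.card ↥(V ⊓ K)) := Nat.mul_le_mul ha hcon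
    have h2 : 0 < V.relIndex K * Nat.card ↥(V ⊓ K) := Nat.mul_pos hb hd
    nlinarith
  by_cases hHV : H ≤ V
  · have h1 := Subgroup.card_le_of_le hHV
    have h2 : 0 < Nat.card K := Nat.card_pos
    nlinarith
  obtain ⟨h, hh, hhV⟩ := SetLike.not_le_iff_exists.1 hHV
  obtain ⟨j, hjH, hjV, hjj⟩ : ∃ j ∈ H, j ∉ V ∧ j * j ∈ V := by
    have h8 : h ^ 8 ∈ V := i8 ▸ V.pow_index_mem h
    by_cases h2 : h * h ∈ V
    · exact ⟨h, hh, hhV, h2⟩
    by_cases h3 : h * h * (h * h) ∈ V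
    · exact ⟨_, mul_mem hh hh, h2, h3⟩
    refine ⟨_, mul_mem (mul_mem hh hh) (mul_mem hh hh), h3, ?_⟩
    convert h8 using 1
    simp only [pow_succ, pow_zero]; group
  have h5 := Bas1.cidx (D := V ⊓ H) (I := V ⊓ K) (v := j) fun x hx => ⟨by
    rw [commutatorElement_def, mul_assoc, mul_assoc, ← mul_assoc j]
    exact mul_mem hx.1 (hV.conj_mem _ (inv_mem hx.1) j), hc (commutator_mem_commutator hx.2 hjH)⟩
  have h6 := Solv.relIndex_mul_card_inf (C1 j) (V ⊓ H)
  have h7 : Nat.card ↥(C1 j ⊓ (V ⊓ H)) ≤ 4 :=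
    hj j hjV hjj ▸ Subgroup.card_le_of_le (le_inf (inf_le_right.trans inf_le_left) inf_le_left)
  have := Nat.mul_le_mul h5 h7
  omega

end WLH

theorem pf_WL [Bas1.{u}] : WL.{u} := by
  refine ⟨fun {G} _ _ {T V} _ hVT hN _ c16 i8 ⟨t, ht, ht'⟩ hj => ?_⟩
  have : (V.subgroupOf T).Normal := (normal_subgroupOf_iff_le_normalizer hVT).2 hN
  refine WLH.core (V := V.subgroupOf T) ?_ i8 ⟨⟨t, ht⟩, ht'⟩ fun j h1 h2 => ?_
  · rw [← c16]; exact Nat.card_congr (subgroupOfEquivOfLe hVT).toEquiv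
  · have e : V.subgroupOf T ⊓ C1 j = (V ⊓ C1 (j : G)).subgroupOf T := by
      ext x
      simp only [mem_inf, mem_subgroupOf, mem_centralizer_singleton_iff]
      exact and_congr_right fun _ => ⟨fun h => congrArg Subtype.val h, fun h => Subtype.ext h⟩
    rw [e, ← hj j j.2 h1 h2]
    exact Nat.card_congr (subgroupOfEquivOfLe (inf_le_left.trans hVT)).toEquiv

end Cfsg.Lib.P8
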