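import Cfsg.Agent.P8.Stm

/-!
# The natural `L₃(2)`-module with coordinates
-/

set_option autoImplicit false

namespace Cfsg.Lib.P8

open Subgroup Cfsg.Lib.Trans Cfsg.Lib.Gold

universe u v

namespace WS8aH

variable {M : Type u} [AddCommGroup M] [DistribMulAction L32 M]

theorem coord (h2 : ∀ m : M, m + m = 0) (K : AddSubgroup M) (hK : Nat.card K = 8) : Nonempty (K ≃+ V3) := by
  have : Fact (Nat.Prime 2) := ⟨Nat.prime_two⟩
  have : Finite K := Nat.finite_of_card_ne_zero (by omega)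
  let _ : Module (ZMod 2) K := AddCommGroup.zmodModule fun x => Subtype.ext (by
    rw [two_nsmul]; exact h2 x)
  have h := Module.natCard_eq_pow_finrank (K := ZMod 2) (V := K)
  rw [hK, Nat.card_zmod] at h
  exact ⟨(Module.finBasisOfFinrankEq (ZMod 2) K
    (Nat.pow_right_injective le_rfl (h.symm.trans (by norm_num : 8 = 2 ^ 3)))).equivFun.toAddEquiv⟩

theorem aut [E73.{u}] (hM : Md L32 M) (K : AddSubgroup M) (hK : Nat.card K = 8)
    (inv : ∀ g : L32, ∀ m ∈ K, g • m ∈ K) (φ : K ≃+ V3) : ∃ α : L32 ≃* L32, ∀ (g : L32) (m : K),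
      φ ⟨g • (m : M), inv g m m.2⟩ = (α g : Matrix (Fin 3) (Fin 3) (ZMod 2)).mulVec (φ m) := by
  let l : L32 → V3 →ₗ[ZMod 2] V3 := fun g => AddMonoidHom.toZModLinearMap 2 (AddMonoidHom.mk'
    (fun w => φ ⟨g • (φ.symm w : M), inv g _ (φ.symm w).2⟩) fun a b => by
      rw [← map_add]; exact congrArg φ (Subtype.ext (by simp)))
  have hl : ∀ g w, l g w = φ ⟨g • (φ.symm w : M), inv g _ (φ.symm w).2⟩ := fun _ _ => rfl
  have mul : ∀ g h, LinearMap.toMatrix' (l (g * h)) = LinearMap.toMatrix' (l g) * LinearMap.toMatrix' (l h) :=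
    fun g h => by
      rw [← LinearMap.toMatrix'_mul]
      exact congrArg _ (LinearMap.ext fun w => by simp [hl, mul_smul])
  have one : LinearMap.toMatrix' (l 1) = 1 := by
    rw [← LinearMap.toMatrix'_one]
    exact congrArg _ (LinearMap.ext fun w => by simp [hl])
  have det : ∀ g, (LinearMap.toMatrix' (l g)).det = 1 := fun g =>
    (by decide : ∀ a b : ZMod 2, a * b = 1 → a = 1) _ (LinearMap.toMatrix' (l g⁻¹)).det (by
      rw [← Matrix.det_mul, ← mul, mul_inv_cancel, one, Matrix.det_one])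
  let ρ : L32 →* L32 := MonoidHom.mk' (fun g => ⟨_, det g⟩) fun g h => Subtype.ext (mul g h)
  have key : ∀ (g : L32) (m : K),
      φ ⟨g • (m : M), inv g m m.2⟩ = (ρ g : Matrix (Fin 3) (Fin 3) (ZMod 2)).mulVec (φ m) := fun g m =>
    ((LinearMap.toMatrix'_mulVec (l g) (φ m)).trans (by simp [hl])).symm
  obtain ⟨hs, -, σ, -, h7, -⟩ := E73.l32.{u}
  have inj : Function.Injective ρ := ρ.ker_eq_bot_iff.1
    ((IsSimpleGroup.eq_bot_or_eq_top_of_normal _ inferInstance).resolve_right fun h => by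
      have : Finite K := Nat.finite_of_card_ne_zero (by omega)
      have : Nontrivial K := Finite.one_lt_card_iff_nontrivial.1 (by omega)
      obtain ⟨m, hm⟩ := exists_ne (0 : K)
      have e := key σ m
      rw [show ρ σ = 1 from h.ge (mem_top σ), Matrix.SpecialLinearGroup.coe_one, Matrix.one_mulVec] at e
      exact hm (Subtype.ext (hM.fp σ (.inr h7) m (congrArg Subtype.val (φ.injective e)))))
  exact ⟨MulEquiv.ofBijective ρ (Finite.injective_iff_bijective.1 inj), key⟩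

end WS8aH

theorem pf_WS8a [BasJ.{u}] [PjB.{u, 0}] [Brg.{u, 0}] [M2b.{u}] [E73.{u}] : WS8a.{u} := ⟨by
  intro G _ _ h8 H Q π hT
  classical
  have hN := (PjB.one hT.toPj).2.2.2.1
  have ok := Brg.om.{u, 0} hN
  obtain ⟨M, _, _, _, p, hM, s⟩ := Brg.sec h8 hT.toPj ok
  have p1 : p 1 = 0 := (s.zero 1 (one_mem _)).2 (one_mem _)
  obtain ⟨⟨a, ha⟩, a1⟩ := ne_bot_iff_exists_ne_one.1 (BasJ.ne hT.two hT.ne).2
  obtain ⟨K, hK, inv⟩ := M2b.out hM ⟨p a, 0, fun e => a1 (Subtype.ext ((s.zero a ha).1 e))⟩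
  obtain ⟨φ⟩ := WS8aH.coord hM.two K hK
  obtain ⟨α, hα⟩ := WS8aH.aut hM K hK inv φ
  let W : Subgroup G :=
    { carrier := {a | a ∈ Om Q ∧ p a ∈ K}
      one_mem' := ⟨one_mem _, p1 ▸ zero_mem _⟩
      mul_mem' := fun {a b} ha hb => ⟨mul_mem ha.1 hb.1, s.add a ha.1 b hb.1 ▸ add_mem ha.2 hb.2⟩
      inv_mem' := fun {a} ha => ⟨inv_mem ha.1, by
        rw [eq_neg_of_add_eq_zero_left ((s.add _ (inv_mem ha.1) a ha.1).symm.trans
          ((congrArg p (inv_mul_cancel a)).trans p1))]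
        exact neg_mem ha.2⟩ }
  have cj : ∀ h ∈ H, ∀ a ∈ W, h * a * h⁻¹ ∈ W := fun h hh a ha =>
    ⟨mem_normalizer_conj (ok.n2 hh) ha.1, s.eqv h hh a ha.1 ▸ inv _ _ ha.2⟩
  refine ⟨W, fun g => α (π g), fun a => if h : p a ∈ K then φ ⟨p a, h⟩ else 0, fun _ h => h.1,
    fun h hh => mem_normalizer_of_cj_le (cj_le_iff.2 (cj h hh)), (PjB.equiv α).2 hT, fun a ha b hb => ?_,
    fun a ha => ?_, fun m => ?_, fun h hh a ha => ?_⟩
  · rw [dif_pos ha.2, dif_pos hb.2, dif_pos (mul_mem ha hb : _ ∈ W).2, ← map_add]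
    exact congrArg φ (Subtype.ext (s.add a ha.1 b hb.1))
  · rw [dif_pos ha.2, map_eq_zero_iff φ φ.injective, Subtype.ext_iff]
    exact s.zero a ha.1
  · obtain ⟨a, ha, e⟩ := s.sur (φ.symm m)
    have h : p a ∈ K := e ▸ (φ.symm m).2
    exact ⟨a, ⟨ha, h⟩, by rw [dif_pos h, ← φ.apply_symm_apply m]; exact congrArg φ (Subtype.ext e)⟩
  · rw [dif_pos ha.2, dif_pos (cj h hh a ha).2, ← hα]
    exact congrArg φ (Subtype.ext (s.eqv h hh a ha.1))⟩

end Cfsg.Lib.P8
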