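import Cfsg.Agent.P8.X4
import Cfsg.Agent.CITCor.EPPO
import Cfsg.Agent.Class.A5Recog
import Cfsg.Agent.Class.PGL2Sub
import Cfsg.Agent.S0497
import Cfsg.Agent.S0144

/-!
# The groups `L₂(q)` with element orders at most 8
-/

set_option autoImplicit false

namespace Cfsg.Lib.P8

universe u v

theorem pf_X1 [E73.{u}] : X1.{u} where
  l2 := fun {G} _ _ _ hG h F _ _ ⟨e⟩ => by
    obtain ⟨-, x, hx⟩ := CITCor.exists_orderOf_psl2 F
    have h1 := X4H.le8_of h e x
    have h2 := Class.gcd_mul_card_PSL2 (F := F)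
    have h3 : IsPrimePow (Fintype.card F) := Fintype.isPrimePow_card_of_field
    have h4 : ∀ p : ℕ, p.Prime → 11 ≤ p → ¬ p ∣ Nat.card G := fun p hp l d => by
      have := Fact.mk hp
      obtain ⟨g, hg⟩ := exists_prime_orderOf_dvd_card' p d
      have := h g
      omega
    have h5 : ∀ a, Nat.card G ≠ 2 ^ a * 3 ^ 1 := fun a k => hG
      (IsSimpleGroup.comm_iff_isSolvable.2 (Agent.S0144.result 2 3 a 1 Nat.prime_two
        Nat.prime_three k) |> fun k => ⟨⟨k⟩⟩)
    rw [← Nat.card_congr e.toEquiv, Nat.card_eq_fintype_card (α := F)] at h2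
    rw [hx] at h1
    have h6 := h3.two_le
    generalize Fintype.card F = q at h1 h2 h3 h6
    have h7 : q ≤ 17 := by
      rcases (Nat.dvd_prime Nat.prime_two).1 (Nat.gcd_dvd_left 2 (q - 1)) with k | k <;>
        rw [k] at h1 <;> omega
    interval_cases q <;> norm_num at h2 h1
    · exact absurd h2 (h5 1)
    · exact absurd (by omega) (h5 2)
    · exact .inl (Class.nonempty_mulEquiv_A5_of_isSimpleGroup h2)
    · exact .inl (Class.nonempty_mulEquiv_A5_of_isSimpleGroup (by omega))
    · exact absurd h3 (by decide +kernel)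
    · exact .inr (.inr (.inl (E73.iso (by omega))))
    · exact .inr (.inl (Agent.S0497.result (by omega)))
    · exact absurd (by omega) (h4 11 (by norm_num) le_rfl)
    · exact absurd (by omega) (h4 13 (by norm_num) (by norm_num))
    · exact absurd h3 (by decide +kernel)

end Cfsg.Lib.P8
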