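import Cfsg.Agent.P8.X4
import Cfsg.Agent.Spor.M24Sub
import Cfsg.Agent.S0243
import Cfsg.Agent.S1059

/-!
# Groups over the field with three elements, Mathieu groups and alternating groups
-/

set_option autoImplicit false

namespace Cfsg.Lib.P8

open Subgroup Cfsg.Lib.Class Matrix X4H

universe u v

namespace X3H

def el (A B C D : Matrix (Fin 2) (Fin 2) (ZMod 3))
    (h : fromBlocks A B C D * J (Fin 2) (ZMod 3) * (fromBlocks A B C D)ᵀ = J (Fin 2) (ZMod 3)) :
    symplecticGroup (Fin 2) (ZMod 3) := ⟨fromBlocks A B C D, SymplecticGroup.mem_iff.2 h⟩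

def t : symplecticGroup (Fin 2) (ZMod 3) := el 1 !![1, 0; 0, 0] 0 1 (by decide +kernel)
def s : symplecticGroup (Fin 2) (ZMod 3) :=
  el !![1, 0; 0, 0] !![0, 0; 0, -1] !![0, 0; 0, 1] !![1, 0; 0, 0] (by decide +kernel)
def w : symplecticGroup (Fin 2) (ZMod 3) :=
  el !![0, 1; 1, 0] 0 0 !![0, 1; 1, 0] (by decide +kernel)

def c : Equiv.Perm (Fin 8) := c[0, 1, 2] * c[3, 4, 5, 6, 7]

theorem oc : orderOf c = 15 := by
  rw [orderOf_eq_iff (by norm_num)]
  decide +kernel

end X3H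

open X3H

theorem pf_X3 [X2.{u}] : X3.{u} where
  f3 h F _ _ hF := by
    have h1 := X2.big h 13 (by norm_num) (by norm_num)
    refine ⟨fun ⟨e⟩ => h1 ?_, fun ⟨e⟩ => h1 ?_, fun ⟨e⟩ => h1 ?_⟩ <;> rw [Nat.card_congr e.toEquiv]
    · have := Agent.S0243.result hF 3 (by norm_num)
      norm_num [Fin.prod_univ_three] at this
      omega
    · have := Agent.S0243.result hF 4 (by norm_num)
      norm_num [Fin.prod_univ_four] at this
      omega
    · rw [Agent.S1059.result hF]
      norm_num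
  mat h := by
    have h1 := X2.big h 11 (by norm_num) le_rfl
    have h2 := X2.big h 13 (by norm_num) (by norm_num)
    refine ⟨fun ⟨e⟩ => h1 ?_, fun ⟨e⟩ => h1 ?_, fun ⟨e⟩ => h1 ?_, by omega⟩ <;>
      rw [Nat.card_congr e.toEquiv]
    · rw [Spor.MP.card_M11]; norm_num
    · rw [Spor.MP.card_M22]; norm_num
    · rw [Spor.MP.card_M23]; norm_num
  alt h n hn := fun ⟨e⟩ => by
    have h1 := le8_of h e ⟨c.viaEmbeddingHom (Fin.castLEEmb hn), by
      rw [Equiv.Perm.mem_alternatingGroup, Equiv.Perm.viaEmbeddingHom_apply,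
        Equiv.Perm.viaEmbedding, Equiv.Perm.sign_extendDomain]
      decide +kernel⟩
    rw [orderOf_mk, orderOf_injective _ (Equiv.Perm.viaEmbeddingHom_injective _), oc] at h1
    omega
  sp43 h F _ _ hF := fun ⟨e⟩ => by
    obtain ⟨f⟩ := nonempty_ringEquiv_zmod Nat.prime_three hF
    refine twelve t s w ?_ ?_ ?_ ?_ ?_ (le8_of h (e.trans (pspEquiv 2 f))) <;>
      simp only [ne_eq, Subtype.ext_iff] <;> decide +kernel

end Cfsg.Lib.P8
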