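import Cfsg.Agent.P8.Stm
import Cfsg.Agent.Perm.UnitMat
import Cfsg.Agent.Class.SmallFields

/-!
# `U₃(3)` and `U₄(3)` have elements of order 12
-/

set_option autoImplicit false

namespace Cfsg.Lib.P8

open Subgroup Cfsg.Lib.Class Matrix

universe u v

namespace X4H

theorem le8_of {G H : Type*} [Group G] [Group H] (h : Le8 G) (e : G ≃* H) : Le8 H := fun x => by
  rw [← e.symm.orderOf_eq]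
  exact h _

theorem twelve {H : Type*} [Group H] (t s h : H) (ht : t * t * t = 1) (hs : s * s * (s * s) = 1)
    (c : t * s = s * t) (h1 : h * t ≠ t * h) (h2 : h * (s * s) ≠ s * s * h) :
    ¬ Le8 (H ⧸ center H) := fun k => by
  have o1 : orderOf (t : H ⧸ center H) = 3 := orderOf_eq_prime
    (by rw [← QuotientGroup.mk_pow, pow_three', ht]; rfl)
    fun e => h1 (mem_center_iff.1 ((QuotientGroup.eq_one_iff _).1 e) h)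
  have o2 : orderOf (s : H ⧸ center H) = 2 ^ (1 + 1) := orderOf_eq_prime_pow
    (fun e => h2 (by
      rw [← QuotientGroup.mk_pow, pow_one, sq] at e
      exact mem_center_iff.1 ((QuotientGroup.eq_one_iff _).1 e) h))
    (by rw [← QuotientGroup.mk_pow, pow_succ 2, pow_mul, pow_one, sq, sq, hs]; rfl)
  have h3 : Commute (t : H ⧸ center H) s := by
    rw [Commute, SemiconjBy, ← QuotientGroup.mk_mul, c]; rfl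
  have h4 := k (t * s)
  rw [h3.orderOf_mul_eq_mul_orderOf_of_coprime (by rw [o1, o2]; norm_num), o1, o2] at h4
  omega

theorem mem {n : ℕ} (A : SpecialLinearGroup (Fin n) GF9)
    (h : ∀ i j, ∑ k, A.1 k i * A.1 k j ^ 3 = if i = j then 1 else 0) : A ∈ SU n GF9 3 := by
  have : CharP GF9 3 := charP_of_injective_algebraMap (algebraMap (ZMod 3) GF9).injective 3
  refine (Perm.mem_SU_iff_mul (frobenius GF9 3) (fun _ => rfl) A).2 ?_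
  ext i j : 1
  rw [Matrix.mul_apply, Matrix.one_apply, ← h]
  rfl

def el {n : ℕ} (A : Matrix (Fin n) (Fin n) GF9) (h : A.det = 1 ∧
    ∀ i j, ∑ k, A k i * A k j ^ 3 = if i = j then 1 else 0) : SU n GF9 3 :=
  ⟨⟨A, h.1⟩, mem _ h.2⟩

theorem ext' {n : ℕ} {a b : SU n GF9 3} : a = b ↔ a.1.1 = b.1.1 :=
  Subtype.ext_iff.trans Subtype.ext_iff

def t3 : SU 3 GF9 3 := el
  !![⟨1, 1⟩, ⟨0, 1⟩, ⟨1, 0⟩; ⟨0, 1⟩, ⟨1, 1⟩, ⟨1, 0⟩; ⟨2, 0⟩, ⟨2, 0⟩, ⟨1, 1⟩] (by decide +kernel)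
def s3 : SU 3 GF9 3 := el
  !![⟨2, 0⟩, ⟨2, 0⟩, ⟨1, 1⟩; ⟨0, 2⟩, ⟨1, 2⟩, ⟨0, 1⟩; ⟨1, 1⟩, ⟨1, 0⟩, ⟨2, 0⟩] (by decide +kernel)
def h3 : SU 3 GF9 3 := el
  !![⟨0, 0⟩, ⟨0, 0⟩, ⟨2, 0⟩; ⟨0, 0⟩, ⟨1, 0⟩, ⟨0, 0⟩; ⟨1, 0⟩, ⟨0, 0⟩, ⟨0, 0⟩] (by decide +kernel)
def t4 : SU 4 GF9 3 := el
  !![⟨1, 1⟩, ⟨0, 1⟩, ⟨1, 0⟩, ⟨0, 0⟩; ⟨0, 1⟩, ⟨1, 1⟩, ⟨1, 0⟩, ⟨0, 0⟩;
    ⟨2, 0⟩, ⟨2, 0⟩, ⟨1, 1⟩, ⟨0, 0⟩; ⟨0, 0⟩, ⟨0, 0⟩, ⟨0, 0⟩, ⟨1, 0⟩] (by decide +kernel)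
def s4 : SU 4 GF9 3 := el
  !![⟨2, 0⟩, ⟨2, 0⟩, ⟨1, 1⟩, ⟨0, 0⟩; ⟨0, 2⟩, ⟨1, 2⟩, ⟨0, 1⟩, ⟨0, 0⟩;
    ⟨1, 1⟩, ⟨1, 0⟩, ⟨2, 0⟩, ⟨0, 0⟩; ⟨0, 0⟩, ⟨0, 0⟩, ⟨0, 0⟩, ⟨1, 0⟩] (by decide +kernel)
def h4 : SU 4 GF9 3 := el
  !![⟨0, 0⟩, ⟨0, 0⟩, ⟨2, 0⟩, ⟨0, 0⟩; ⟨0, 0⟩, ⟨1, 0⟩, ⟨0, 0⟩, ⟨0, 0⟩;
    ⟨1, 0⟩, ⟨0, 0⟩, ⟨0, 0⟩, ⟨0, 0⟩; ⟨0, 0⟩, ⟨0, 0⟩, ⟨0, 0⟩, ⟨1, 0⟩] (by decide +kernel)

end X4H

open X4H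

theorem pf_X4 : X4.{u} where
  u33 h F _ _ hF := fun ⟨e⟩ => by
    obtain ⟨f⟩ := nonempty_ringEquiv_GF9 hF
    refine twelve t3 s3 h3 ?_ ?_ ?_ ?_ ?_ (le8_of h (e.trans (psuEquiv 3 3 f))) <;>
      simp only [ne_eq, ext'] <;> decide +kernel
  u43 h F _ _ hF := fun ⟨e⟩ => by
    obtain ⟨f⟩ := nonempty_ringEquiv_GF9 hF
    refine twelve t4 s4 h4 ?_ ?_ ?_ ?_ ?_ (le8_of h (e.trans (psuEquiv 4 3 f))) <;>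
      simp only [ne_eq, ext'] <;> decide +kernel

end Cfsg.Lib.P8
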